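import Cfsg.Agent.SZ2.Main
import Cfsg.Agent.H41.Higman
import Cfsg.Agent.H61.Small
import Cfsg.Agent.H1.Hall
import Cfsg.Agent.H1.Product
import Cfsg.Agent.S3360

/-! A solvable group of automorphisms transitive on the involutions of a 2-group contains an
automorphism satisfying `HigM`. -/

set_option autoImplicit false

namespace Cfsg.Agent.SZ2

open H41

variable {G : Type*} [Group G] [Finite G] {Y : Type*} [Group Y] [Finite Y]

theorem ncard_invol {Z : Subgroup G} (hZ : ∀ x, x ∈ Z ↔ x * x = 1) :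
    {x : G | x ≠ 1 ∧ x * x = 1}.ncard = Nat.card Z - 1 := by
  have : {x : G | x ≠ 1 ∧ x * x = 1} = (Z : Set G) \ {1} := by
    ext x
    simp [hZ, and_comm]
  rw [this, Set.ncard_diff_singleton_of_mem (one_mem Z)]
  rfl

omit [Finite Y] in
theorem index_stab {Z : Subgroup G} (hZ : ∀ x, x ∈ Z ↔ x * x = 1) (φ : Y →* MulAut G)
    (htr : ∀ x y : G, x ≠ 1 → x * x = 1 → y ≠ 1 → y * y = 1 → ∃ a : Y, φ a x = y) {x : G}
    (hx1 : x ≠ 1) (hx : x * x = 1) :
    ∃ S : Subgroup Y, (∀ a, a ∈ S ↔ φ a x = x) ∧ S.index = Nat.card Z - 1 := by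
  let _ : MulAction Y G := MulAction.compHom G φ
  refine ⟨MulAction.stabilizer Y x, fun a => Iff.rfl, ?_⟩
  rw [MulAction.index_stabilizer, ← ncard_invol hZ]
  congr 1
  ext y
  constructor
  · rintro ⟨a, rfl⟩
    exact ⟨fun e => hx1 ((map_eq_one_iff (φ a) (φ a).injective).1 e), by
      show φ a x * φ a x = 1
      rw [← map_mul, hx, map_one]⟩
  · rintro ⟨h1, h2⟩
    exact htr x y hx1 hx h1 h2

theorem arith_faithful {r n a b : ℕ} (hr : r.Prime) (hn : 2 ≤ n) (hrn : r ∣ 2 ^ n - 1)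
    (h1 : n ≤ b) (h2 : b < a) (h3 : a ≤ 3 * n) (h : (2 ^ n - 1) * r ∣ 2 ^ a - 2 ^ b) : False := by
  have hq : 2 ^ 2 ≤ 2 ^ n := Nat.pow_le_pow_right (by norm_num) hn
  have hodd : Odd (2 ^ n - 1) :=
    Nat.Even.sub_odd Nat.one_le_two_pow (Nat.even_pow.2 ⟨even_two, by omega⟩) odd_one
  have hro : Odd r := hodd.of_dvd_nat hrn
  obtain ⟨c, rfl⟩ := Nat.exists_eq_add_of_lt h2
  rw [show 2 ^ (b + c + 1) - 2 ^ b = 2 ^ b * (2 ^ (c + 1) - 1) by
    rw [Nat.mul_sub, mul_one, ← pow_add, add_assoc]] at h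
  have h4 := (Nat.Coprime.pow_right b (Nat.coprime_two_right.2 (hodd.mul hro))).dvd_of_dvd_mul_left h
  have h5 := (dvd_mul_right _ _).trans h4
  rw [← Nat.gcd_eq_left_iff_dvd, Nat.pow_sub_one_gcd_pow_sub_one] at h5
  have h6 := Nat.one_le_two_pow (n := n.gcd (c + 1))
  have h7 : n.gcd (c + 1) = n := Nat.pow_right_injective le_rfl (by simp only; omega)
  obtain ⟨j, hj⟩ := Nat.gcd_eq_left_iff_dvd.1 h7
  have hj1 : 0 < j := Nat.pos_of_mul_pos_left (a := n) (by omega)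
  have hj2 : j ≤ 2 := Nat.le_of_mul_le_mul_left (c := n) (by omega) (by omega)
  rw [hj] at h4
  interval_cases j
  · rw [mul_one] at h4
    have := Nat.le_of_dvd (by omega) h4
    have h8 := hr.two_le
    have : (2 ^ n - 1) * 2 ≤ (2 ^ n - 1) * r := Nat.mul_le_mul_left _ h8
    omega
  · rw [pow_mul, show (2 ^ n) ^ 2 - 1 = (2 ^ n - 1) * (2 ^ n + 1) by
      rw [mul_comm, ← Nat.sq_sub_sq]] at h4
    have h8 := Nat.dvd_of_mul_dvd_mul_left (by omega) h4
    have h9 : r ∣ 2 := by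
      have := Nat.dvd_sub h8 hrn
      rwa [show 2 ^ n + 1 - (2 ^ n - 1) = 2 by omega] at this
    rw [(Nat.prime_dvd_prime_iff_eq hr Nat.prime_two).1 h9] at hro
    exact absurd hro (by decide)

theorem faithful [Group.IsSolvable Y] (hG : IsPGroup 2 G) {Z : Subgroup G}
    (hZ : ∀ x, x ∈ Z ↔ x * x = 1) (hc : ∀ z ∈ Z, ∀ y, z * y = y * z) {n : ℕ} (hn : 2 ≤ n)
    (hcard : Nat.card Z = 2 ^ n) (φ : Y →* MulAut G) (hφ : Function.Injective φ)
    (htr : ∀ x y : G, x ≠ 1 → x * x = 1 → y ≠ 1 → y * y = 1 → ∃ a : Y, φ a x = y)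
    (hπ : ∀ r : ℕ, r.Prime → r ∣ Nat.card Y → r ∣ 2 ^ n - 1) {a : Y}
    (ha : ∀ z ∈ Z, φ a z = z) : a = 1 := by
  classical
  have : Fact (Nat.Prime 2) := ⟨Nat.prime_two⟩
  have hZi : ∀ (g : Y), ∀ z ∈ Z, φ g z ∈ Z := fun g z hz => by
    rw [hZ, ← map_mul, (hZ z).1 hz, map_one]
  let K : Subgroup Y :=
    { carrier := {a | ∀ z ∈ Z, φ a z = z}
      mul_mem' := fun {a b} ha hb z hz => by rw [map_mul, MulAut.mul_apply, hb z hz, ha z hz]
      one_mem' := fun z _ => by simp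
      inv_mem' := fun {a} ha z hz => by
        rw [map_inv, MulAut.inv_apply, MulEquiv.symm_apply_eq, ha z hz] }
  have hKn : K.Normal := ⟨fun k hk g z hz => by
    rw [map_mul, map_mul, MulAut.mul_apply, MulAut.mul_apply, hk _ (hZi _ z hz),
      ← MulAut.mul_apply, ← map_mul, mul_inv_cancel, map_one, MulAut.one_apply]⟩
  by_contra ha1
  obtain ⟨R, r, hr, hRn, hR1, hRK, -, hRp, -⟩ := H2.exists_minimal_normal_le_of_solvable K hKn
    inferInstance (fun e => ha1 (by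
      have : a ∈ K := ha
      rwa [e, Subgroup.mem_bot] at this))
  have : Fact r.Prime := ⟨hr⟩
  have hrn : r ∣ 2 ^ n - 1 := hπ r hr ((hRp.card_eq_or_dvd.resolve_left
    (fun e => hR1 (Subgroup.card_eq_one.1 e))).trans R.card_subgroup_dvd_card)
  have hodd : Odd (2 ^ n - 1) :=
    Nat.Even.sub_odd Nat.one_le_two_pow (Nat.even_pow.2 ⟨even_two, by omega⟩) odd_one
  have hro : Odd r := hodd.of_dvd_nat hrn
  obtain ⟨D, hD, hD4, -, hDa⟩ := H61.exists_small_critical hG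
  have hDi : ∀ (g : Y), ∀ x ∈ D, φ g x ∈ D := fun g x hx =>
    Subgroup.characteristic_iff_le_comap.1 hD (φ g) hx
  have hD2 : ∀ x ∈ D, x * x ∈ Z := fun x hx => by
    have := hD4 x hx
    rw [hZ, ← pow_two, ← pow_two, ← pow_mul]
    exact this
  let C : Subgroup G :=
    { carrier := {x | x ∈ D ∧ ∀ ρ ∈ R, φ ρ x = x}
      mul_mem' := fun {x y} hx hy => ⟨mul_mem hx.1 hy.1, fun ρ h => by
        rw [map_mul, hx.2 ρ h, hy.2 ρ h]⟩
      one_mem' := ⟨one_mem _, fun ρ _ => map_one _⟩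
      inv_mem' := fun {x} hx => ⟨inv_mem hx.1, fun ρ h => by rw [map_inv, hx.2 ρ h]⟩ }
  have hCi : ∀ (g : Y), ∀ x ∈ C, φ g x ∈ C := fun g x hx => ⟨hDi g x hx.1, fun ρ h => by
    have := hx.2 _ (hRn.conj_mem ρ h g⁻¹)
    rw [inv_inv, map_mul, map_mul, MulAut.mul_apply, MulAut.mul_apply, map_inv, MulAut.inv_apply,
      MulEquiv.symm_apply_eq] at this
    exact this⟩
  have hCD : C < D := lt_of_le_of_ne (fun x hx => hx.1) (fun e => hR1 (by
    rw [eq_bot_iff]
    intro ρ hρ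
    obtain ⟨k, hk⟩ := hRp ⟨ρ, hρ⟩
    have h1 : orderOf (φ ρ) ∣ r ^ k := orderOf_dvd_of_pow_eq_one (by
      rw [← map_pow, show ρ ^ r ^ k = 1 from congrArg Subtype.val hk, map_one])
    exact (map_eq_one_iff φ hφ).1 (hDa _ (Nat.coprime_two_right.2 (hro.pow.of_dvd_nat h1))
      (fun d hd => (show d ∈ C by rwa [e]).2 ρ hρ))))
  obtain ⟨d, hd, hdC⟩ := SetLike.exists_of_lt hCD
  obtain ⟨j, hj1, hj2⟩ := exists_invol_pow_hig hG (x := d) (fun e => hdC (e ▸ one_mem C))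
  have hZC : Z ≤ C := fun z hz => ⟨by
    by_cases h1 : z = 1
    · rw [h1]; exact one_mem _
    obtain ⟨g, rfl⟩ := htr _ z hj1 hj2 h1 ((hZ z).1 hz)
    exact hDi g _ (pow_mem hd j), fun ρ h => hRK h z hz⟩
  let W := {x : G // x ∈ D ∧ x ∉ C}
  let I := {x : G // x ∈ {x : G | x ≠ 1 ∧ x * x = 1}}
  let s : W → I := fun x => ⟨x * x, fun e => x.2.2 (hZC ((hZ _).2 e)), (hZ _).1 (hD2 _ x.2.1)⟩
  let z₀ : I := ⟨d ^ j, hj1, hj2⟩
  have hWi : ∀ (g : Y) (x : G), x ∈ D ∧ x ∉ C → φ g x ∈ D ∧ φ g x ∉ C := fun g x hx =>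
    ⟨hDi g x hx.1, fun h => hx.2 (by
      have := hCi g⁻¹ _ h
      rwa [← MulAut.mul_apply, ← map_mul, inv_mul_cancel, map_one, MulAut.one_apply] at this)⟩
  have hfib : ∀ z : I, Nat.card {x // s x = z} = Nat.card {x // s x = z₀} := fun z => by
    have key : ∀ z z' : I, Nat.card {x // s x = z} ≤ Nat.card {x // s x = z'} := fun z z' => by
      obtain ⟨g, hg⟩ := htr z z' z.2.1 z.2.2 z'.2.1 z'.2.2
      refine Nat.card_le_card_of_injective (fun x => ⟨⟨φ g x.1, hWi g _ x.1.2⟩, Subtype.ext ?_⟩)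
        (fun x y e => Subtype.ext (Subtype.ext ((φ g).injective
          (congrArg (fun w : {x // s x = z'} => (w.1 : G)) e))))
      show φ g x.1 * φ g x.1 = z'
      rw [← map_mul, ← hg]
      exact congrArg (fun w : I => φ g w) x.2
    exact le_antisymm (key _ _) (key _ _)
  have hW : Nat.card W = (2 ^ n - 1) * Nat.card {x // s x = z₀} := by
    have := Fintype.ofFinite I
    rw [← Nat.card_congr (Equiv.sigmaFiberEquiv s), Nat.card_sigma, Finset.sum_congr rfl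
      (fun z _ => hfib z), Finset.sum_const, smul_eq_mul, Finset.card_univ,
      ← Nat.card_eq_fintype_card, ← hcard, ← ncard_invol hZ]
    rfl
  have hf : r ∣ Nat.card {x // s x = z₀} := by
    by_contra hcon
    let _ : MulAction R {x // s x = z₀} :=
      { smul := fun ρ x => ⟨⟨φ ρ x.1, hWi ρ _ x.1.2⟩, Subtype.ext (by
          show φ ρ x.1 * φ ρ x.1 = z₀
          rw [← map_mul, hRK ρ.2 _ (hD2 _ x.1.2.1)]
          exact congrArg Subtype.val x.2)⟩
        one_smul := fun x => Subtype.ext (Subtype.ext (by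
          show φ 1 x.1 = x.1
          simp))
        mul_smul := fun ρ σ x => Subtype.ext (Subtype.ext (by
          show φ (ρ * σ) x.1 = φ ρ (φ σ x.1)
          simp)) }
    obtain ⟨x, hx⟩ := hRp.nonempty_fixed_point_of_prime_not_dvd_card _ hcon
    exact x.1.2.2 ⟨x.1.2.1, fun ρ h =>
      congrArg (fun w : {x // s x = z₀} => (w.1 : G)) (hx ⟨ρ, h⟩)⟩
  obtain ⟨a, ha⟩ := IsPGroup.iff_card.1 (hG.to_subgroup D)
  obtain ⟨b, hb⟩ := IsPGroup.iff_card.1 (hG.to_subgroup C)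
  have hW2 : Nat.card W = 2 ^ a - 2 ^ b := by
    rw [← ha, ← hb]
    exact Set.ncard_diff (s := (C : Set G)) (t := (D : Set G)) hCD.le
  refine arith_faithful hr hn hrn (a := a) (b := b) ?_ ?_ ?_ ?_
  · have := Subgroup.card_le_of_le hZC
    rwa [hcard, hb, Nat.pow_le_pow_iff_right (by norm_num)] at this
  · have h1 : Nat.card C < Nat.card D := by
      refine lt_of_le_of_ne (Subgroup.card_le_of_le hCD.le) (fun e => hCD.ne ?_)
      exact Subgroup.eq_of_le_of_card_ge hCD.le e.ge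
    rwa [ha, hb, Nat.pow_lt_pow_iff_right (by norm_num)] at h1
  · have := card_le_cube (Z.subgroupOf D) (fun x => by
      rw [Subgroup.mem_subgroupOf, hZ, Subtype.ext_iff]; rfl)
      (fun z hz y => Subtype.ext (hc z hz y)) (fun x => hD2 x x.2)
    rwa [Nat.card_congr (Subgroup.subgroupOfEquivOfLe (hZC.trans hCD.le)).toEquiv, hcard, ha,
      ← pow_mul, Nat.pow_le_pow_iff_right (by norm_num), mul_comm] at this
  · rw [← hW2, hW]
    exact Nat.mul_dvd_mul_left _ hf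

theorem exists_higM_of_faithful [Group.IsSolvable Y] (hG : IsPGroup 2 G) {Z : Subgroup G}
    (hZ : ∀ x, x ∈ Z ↔ x * x = 1) (hc : ∀ z ∈ Z, ∀ y, z * y = y * z) {n : ℕ} (hn : 2 ≤ n)
    (hcard : Nat.card Z = 2 ^ n) (φ : Y →* MulAut G)
    (htr : ∀ x y : G, x ≠ 1 → x * x = 1 → y ≠ 1 → y * y = 1 → ∃ a : Y, φ a x = y)
    (hf : ∀ a : Y, (∀ z ∈ Z, φ a z = z) → a = 1) : ∃ (ξ : MulAut G) (m : ℕ), HigM ξ n m := by
  classical
  have : Fact (Nat.Prime 2) := ⟨Nat.prime_two⟩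
  have hZi : ∀ (g : Y), ∀ z ∈ Z, φ g z ∈ Z := fun g z hz => by
    rw [hZ, ← map_mul, (hZ z).1 hz, map_one]
  have hZ2 : ∀ x : Z, x * x = 1 := fun x => Subtype.ext ((hZ x).1 x.2)
  let _ : CommGroup Z := { (inferInstance : Group Z) with mul_comm := mul_comm_of_sq hZ2 }
  let _ : Module (ZMod 2) (Additive Z) := AddCommGroup.zmodModule (fun x => by
    rw [two_nsmul]; exact hZ2 x)
  have hq : 2 ^ 2 ≤ 2 ^ n := Nat.pow_le_pow_right (by norm_num) hn
  have hnt : Nontrivial Z := Finite.one_lt_card_iff_nontrivial.1 (by omega)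
  let f : Y → Additive Z →+ Additive Z := fun g =>
    AddMonoidHom.mk' (fun v => Additive.ofMul ⟨φ g (Additive.toMul v : Z), hZi g _ (Additive.toMul v).2⟩)
      (fun v w => Subtype.ext (map_mul (φ g) _ _))
  have hf1 : ∀ v, f 1 v = v := fun v => Subtype.ext (by
    show φ 1 _ = _
    rw [map_one]; rfl)
  have hf2 : ∀ g h v, f (g * h) v = f g (f h v) := fun g h v => Subtype.ext (by
    show φ (g * h) _ = _
    rw [map_mul]; rfl)
  let ρ : Y →* (Additive Z ≃ₗ[ZMod 2] Additive Z) :=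
    { toFun := fun g => { (f g).toZModLinearMap 2 with
        invFun := f g⁻¹
        left_inv := fun v => by
          show f g⁻¹ (f g v) = v
          rw [← hf2, inv_mul_cancel, hf1]
        right_inv := fun v => by
          show f g (f g⁻¹ v) = v
          rw [← hf2, mul_inv_cancel, hf1] }
      map_one' := LinearEquiv.ext hf1
      map_mul' := fun g h => LinearEquiv.ext (hf2 g h) }
  have hρ : ∀ g v, ρ g v = f g v := fun _ _ => rfl
  have hf' : ∀ g, (∀ v, f g v = v) → g = 1 := fun g h => hf g (fun z hz =>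
    congrArg (fun v : Additive Z => ((Additive.toMul v : Z) : G)) (h (Additive.ofMul ⟨z, hz⟩)))
  obtain ⟨F, _, _, e, he⟩ := (S3360.result 2 (V := Additive Z) (inferInstance : Group.IsSolvable Y)
    ρ ((injective_iff_map_eq_one ρ).2 (fun g h => hf' g (fun v => by rw [← hρ, h]; rfl)))
    (fun v w hv hw => by
      obtain ⟨a, ha⟩ := htr (Additive.toMul v : Z) (Additive.toMul w : Z)
        (fun e => hv (Subtype.ext e)) ((hZ _).1 (Additive.toMul v).2) (fun e => hw (Subtype.ext e))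
        ((hZ _).1 (Additive.toMul w).2)
      exact ⟨a, Subtype.ext ha⟩)).resolve_right (fun h => by
    have h1 : Even (Nat.card (Additive Z)) := by
      rw [show Nat.card (Additive Z) = 2 ^ n from hcard]
      exact Nat.even_pow.2 ⟨even_two, by omega⟩
    simp only [Set.mem_insert_iff, Set.mem_singleton_iff] at h
    rcases h with h | h | h | h | h | h <;> rw [h] at h1 <;> exact absurd h1 (by decide))
  simp only [hρ] at he
  choose a σ he using he
  have hF : Nat.card F = 2 ^ n := (Nat.card_congr e.toEquiv).symm.trans hcard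
  have he' : ∀ g x, e (f g (e.symm x)) = a g * σ g x := fun g x => by
    rw [he, e.apply_symm_apply]
  have ha0 : ∀ g, a g ≠ 0 := fun g h => by
    have h1 := he g (f g⁻¹ (e.symm 1))
    rw [← hf2, mul_inv_cancel, hf1, e.apply_symm_apply, h, zero_mul] at h1
    exact one_ne_zero h1
  have hmul : ∀ g h x, a (g * h) * σ (g * h) x = a g * σ g (a h) * σ g (σ h x) := fun g h x => by
    rw [← he', hf2, he, he', map_mul, mul_assoc]
  have hamul : ∀ g h, a (g * h) = a g * σ g (a h) := fun g h => by simpa using hmul g h 1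
  let ψ : Y →* (F ≃+* F) := MonoidHom.mk' σ (fun g h => RingEquiv.ext fun x => by
    have := hmul g h x
    rw [← hamul] at this
    exact mul_left_cancel₀ (ha0 _) this)
  have hA : ∀ g ∈ ψ.ker, ∀ v, e (f g v) = a g * e v := fun g hg v => by
    rw [he, show σ g = 1 from hg]; rfl
  have hamul' : ∀ g h : ψ.ker, a (g * h : ψ.ker) = a g * a h := fun g h => by
    rw [Subgroup.coe_mul, hamul, show σ g = 1 from g.2]; rfl
  let α : ψ.ker →* F :=
    { toFun := fun g => a g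
      map_one' := mul_left_cancel₀ (ha0 (1 : ψ.ker)) (by rw [← hamul', mul_one, mul_one])
      map_mul' := hamul' }
  have hα : ∀ g : ψ.ker, α g = 1 → g = 1 := fun g h => Subtype.ext (hf' g (fun v =>
    e.injective (by rw [hA g g.2, show a g = 1 from h, one_mul])))
  have hcyc : IsCyclic ψ.ker :=
    isCyclic_of_injective_ringHom α ((injective_iff_map_eq_one α).2 hα)
  obtain ⟨ξ, hξ⟩ := hcyc.exists_ofOrder_eq_natCard
  have hchar : CharP F 2 := CharTwo.of_one_ne_zero_of_two_eq_zero one_ne_zero (by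
    have : e (e.symm 1 + e.symm 1) = e 0 := congrArg e (hZ2 (Additive.toMul (e.symm 1)))
    rwa [map_add, e.apply_symm_apply, map_zero, one_add_one_eq_two] at this)
  let _ : Algebra (ZMod 2) F := ZMod.algebra F 2
  have hfr : Module.finrank (ZMod 2) F = n := by
    have := Module.natCard_eq_pow_finrank (K := ZMod 2) (V := F)
    rw [hF, Nat.card_zmod] at this
    exact (Nat.pow_right_injective le_rfl this).symm
  have hidx : ψ.ker.index ∣ n := by
    rw [Subgroup.index_ker, ← hfr, ← card_ringEquiv F 2]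
    exact Subgroup.card_subgroup_dvd_card _
  have hm : orderOf ξ ∣ 2 ^ n - 1 := by
    apply orderOf_dvd_of_pow_eq_one
    apply hα
    rw [map_pow, ← hF, Nat.card_eq_fintype_card]
    exact FiniteField.pow_card_sub_one_eq_one _ (ha0 _)
  obtain ⟨k, hk⟩ := hm
  obtain ⟨z, hz⟩ := exists_ne (1 : Z)
  obtain ⟨S, -, hS⟩ := index_stab hZ φ htr (fun e => hz (Subtype.ext e)) ((hZ _).1 z.2)
  have hkn : k ∣ n := by
    have h1 := S.index_dvd_card
    rw [hS, hcard, hk, ← ψ.ker.card_mul_index, ← hξ] at h1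
    exact (Nat.dvd_of_mul_dvd_mul_left (orderOf_pos ξ) h1).trans hidx
  refine ⟨φ ξ, orderOf ξ, hG, good_of_dvd hn hk.symm hkn, ?_, fun j x hx => ?_, ?_,
    fun x hx => hc x ((hZ x).2 hx)⟩
  · rw [← map_pow, ← Subgroup.coe_pow, pow_orderOf_eq_one, Subgroup.coe_one, map_one]
  · by_cases h1 : x = 1
    · exact Or.inl h1
    right
    obtain ⟨i, hi1, hi2⟩ := exists_invol_pow_hig hG h1
    rw [orderOf_dvd_iff_pow_eq_one]
    apply hα
    have h2 := hA _ (ξ ^ j).2 (Additive.ofMul ⟨x ^ i, (hZ _).2 hi2⟩)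
    rw [show f (ξ ^ j : ψ.ker) (Additive.ofMul ⟨x ^ i, (hZ _).2 hi2⟩) =
      Additive.ofMul ⟨x ^ i, (hZ _).2 hi2⟩ from Subtype.ext (by
        show φ (ξ ^ j : ψ.ker) (x ^ i) = x ^ i
        rw [Subgroup.coe_pow, map_pow φ, map_pow, hx])] at h2
    have h3 : e (Additive.ofMul ⟨x ^ i, (hZ _).2 hi2⟩) ≠ 0 := fun h3 => hi1 (by
      have h4 := (map_eq_zero_iff e e.injective).1 h3
      exact congrArg (fun v : Additive Z => ((Additive.toMul v : Z) : G)) h4)
    exact (mul_eq_right₀ h3).1 h2.symm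
  · rw [← hcard]
    exact Nat.card_congr (Equiv.subtypeEquivRight (fun x => (hZ x).symm))

theorem exists_higM (hG : IsPGroup 2 G)
    (h2 : ∃ x y : G, x ≠ y ∧ x ≠ 1 ∧ x * x = 1 ∧ y ≠ 1 ∧ y * y = 1) (Y : Subgroup (MulAut G))
    (hY : Group.IsSolvable Y)
    (htr : ∀ x y : G, x ≠ 1 → x * x = 1 → y ≠ 1 → y * y = 1 → ∃ a ∈ Y, a x = y) :
    ∃ (ξ : MulAut G) (n m : ℕ), HigM ξ n m := by
  classical
  have : Fact (Nat.Prime 2) := ⟨Nat.prime_two⟩
  obtain ⟨a, b, hab, ha1, ha2, hb1, hb2⟩ := h2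
  have : Nontrivial G := ⟨⟨a, b, hab⟩⟩
  have := hG.center_nontrivial
  obtain ⟨z, hz⟩ := exists_ne (1 : Subgroup.center G)
  obtain ⟨j, hj1, hj2⟩ := exists_invol_pow_hig hG (x := (z : G)) (fun e => hz (Subtype.ext e))
  have hc : ∀ x : G, x * x = 1 → ∀ y, x * y = y * x := fun x hx y => by
    by_cases h1 : x = 1
    · simp [h1]
    obtain ⟨k, -, hk⟩ := htr _ x hj1 hj2 h1 hx
    obtain ⟨y, rfl⟩ := k.surjective y
    rw [← hk, ← map_mul, ← map_mul, Subgroup.mem_center_iff.1 (pow_mem z.2 j)]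
  let Z : Subgroup G :=
    { carrier := {x | x * x = 1}
      mul_mem' := fun {x y} hx hy => by
        show x * y * (x * y) = 1
        rw [mul_sq_eq, kap_eq_one_iff.2 (hc x hx y), hx, hy]; group
      one_mem' := one_mul 1
      inv_mem' := fun {x} hx => by
        show x⁻¹ * x⁻¹ = 1
        rw [← mul_inv_rev, hx, inv_one] }
  have hZ : ∀ x, x ∈ Z ↔ x * x = 1 := fun _ => Iff.rfl
  obtain ⟨n, hn⟩ := IsPGroup.iff_card.1 (hG.to_subgroup Z)
  have hn2 : 2 ≤ n := by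
    have h1 : 1 < {x : G | x ≠ 1 ∧ x * x = 1}.ncard :=
      (Set.one_lt_ncard (Set.toFinite _)).2 ⟨a, ⟨ha1, ha2⟩, b, ⟨hb1, hb2⟩, hab⟩
    rw [ncard_invol hZ, hn] at h1
    by_contra hlt
    have : 2 ^ n ≤ 2 ^ 1 := Nat.pow_le_pow_right (by norm_num) (by omega)
    omega
  have htr' : ∀ x y : G, x ≠ 1 → x * x = 1 → y ≠ 1 → y * y = 1 → ∃ g : Y, Y.subtype g x = y :=
    fun x y h1 h2 h3 h4 => by
      obtain ⟨g, hg, e⟩ := htr x y h1 h2 h3 h4
      exact ⟨⟨g, hg⟩, e⟩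
  obtain ⟨H, hH1, hH2⟩ := H1.hall_exists {p | p ∣ 2 ^ n - 1} Y hY
  let φ : H →* MulAut G := Y.subtype.comp H.subtype
  have htrH : ∀ x y : G, x ≠ 1 → x * x = 1 → y ≠ 1 → y * y = 1 → ∃ g : H, φ g x = y :=
    fun x y h1 h2 h3 h4 => by
      obtain ⟨S, hS, hS'⟩ := index_stab hZ Y.subtype htr' h1 h2
      obtain ⟨g, hg⟩ := htr' x y h1 h2 h3 h4
      obtain ⟨u, hu, v, hv, rfl⟩ := H1.mul_eq_of_coprime H S (Nat.coprime_of_dvd' fun p hp d1 d2 =>
        absurd (by rwa [hS', hn] at d2) (hH2 p hp d1)) g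
      rw [map_mul, MulAut.mul_apply, (hS v).1 hv] at hg
      exact ⟨⟨u, hu⟩, hg⟩
  obtain ⟨ξ, m, h⟩ := exists_higM_of_faithful hG hZ hc hn2 hn φ htrH (fun g hg =>
    faithful hG hZ hc hn2 hn φ (Y.subtype_injective.comp H.subtype_injective) htrH hH1 hg)
  exact ⟨ξ, n, m, h⟩

end Cfsg.Agent.SZ2
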