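import Cfsg.Agent.SZ2.Base

/-! Higman's theorem for `HigM`: an abelian maximal invariant subgroup (adapted from `H41.HigmanAb`). -/

set_option autoImplicit false

namespace Cfsg.Agent.SZ2

open H41

variable {P : Type*} [Group P]

/-- An invariant abelian subgroup containing all squares, of exponent `2 ^ (e + 2)`. -/
structure AbM (ξ : MulAut P) (n m : ℕ) (A : Subgroup P) (e : ℕ) : Prop where
  hig : HigM ξ n m
  inv : ∀ x ∈ A, ξ x ∈ A
  comm : ∀ a ∈ A, ∀ b ∈ A, Commute a b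
  sq : ∀ x : P, x * x ∈ A
  exp : ∀ a ∈ A, a ^ 2 ^ (e + 2) = 1
  exp' : ∃ a ∈ A, a ^ 2 ^ (e + 1) ≠ 1

namespace AbM

variable {ξ : MulAut P} {n m e : ℕ} {A : Subgroup P}

theorem normal (h : AbM ξ n m A e) : A.Normal := normal_of_sq_mem h.sq

theorem dis_mem (h : AbM ξ n m A e) (u : P) {a : P} (ha : a ∈ A) : dis u a ∈ A :=
  mul_mem (h.normal.conj_mem a ha u) (inv_mem ha)

theorem kap_mem (h : AbM ξ n m A e) (x y : P) : kap x y ∈ A := by
  have : kap x y = (x * x)⁻¹ * (x * y * (x * y)) * (y * y)⁻¹ := by rw [mul_sq_eq]; group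
  rw [this]
  exact mul_mem (mul_mem (inv_mem (h.sq x)) (h.sq _)) (inv_mem (h.sq y))

theorem dis_mul (h : AbM ξ n m A e) (u : P) {a b : P} (ha : a ∈ A) (hb : b ∈ A) :
    dis u (a * b) = dis u a * dis u b := by
  have := (h.comm _ (inv_mem ha) _ (h.dis_mem u hb)).eq
  calc dis u (a * b) = u * a * u⁻¹ * (dis u b * a⁻¹) := by unfold dis; group
    _ = _ := by rw [← this]; unfold dis; group

theorem dis_eq_one (h : AbM ξ n m A e) {u a : P} (hu : u ∈ A) (ha : a ∈ A) : dis u a = 1 := by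
  unfold dis
  rw [(h.comm u hu a ha).eq]; group

theorem kap_left (h : AbM ξ n m A e) {a : P} (ha : a ∈ A) (v : P) : kap a v = dis v a := by
  have := (h.comm _ (inv_mem ha) _ (h.normal.conj_mem a ha v)).eq
  unfold kap dis
  rw [← this]; group

theorem kap_right (u a : P) : kap u a = dis u⁻¹ a := by unfold kap dis; group

/-- The elements of `A` of order dividing `2 ^ j`. -/
def Om (h : AbM ξ n m A e) (j : ℕ) : Subgroup P where
  carrier := {a | a ∈ A ∧ a ^ 2 ^ j = 1}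
  mul_mem' := fun {a b} ha hb =>
    ⟨mul_mem ha.1 hb.1, by rw [(h.comm a ha.1 b hb.1).mul_pow, ha.2, hb.2, one_mul]⟩
  one_mem' := ⟨one_mem _, one_pow _⟩
  inv_mem' := fun {a} ha => ⟨inv_mem ha.1, by rw [inv_pow, ha.2, inv_one]⟩

theorem Om_inv (h : AbM ξ n m A e) (j : ℕ) : ∀ x ∈ h.Om j, ξ x ∈ h.Om j := fun x hx =>
  ⟨h.inv x hx.1, by rw [← map_pow, hx.2, map_one]⟩

theorem Om_normal (h : AbM ξ n m A e) (j : ℕ) : (h.Om j).Normal :=
  ⟨fun a ha g => ⟨h.normal.conj_mem a ha.1 g, by rw [conj_pow, ha.2]; group⟩⟩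

theorem Om_le (h : AbM ξ n m A e) (j : ℕ) : h.Om j ≤ A := fun _ hx => hx.1

/-- The image of `A` under a power map. -/
def Pw (h : AbM ξ n m A e) (k : ℕ) : Subgroup P where
  carrier := {w | ∃ b ∈ A, b ^ k = w}
  mul_mem' := by
    rintro _ _ ⟨a, ha, rfl⟩ ⟨b, hb, rfl⟩
    exact ⟨a * b, mul_mem ha hb, (h.comm a ha b hb).mul_pow k⟩
  one_mem' := ⟨1, one_mem _, one_pow _⟩
  inv_mem' := by
    rintro _ ⟨a, ha, rfl⟩
    exact ⟨a⁻¹, inv_mem ha, inv_pow a k⟩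

theorem Pw_inv (h : AbM ξ n m A e) (k : ℕ) : ∀ x ∈ h.Pw k, ξ x ∈ h.Pw k := by
  rintro _ ⟨a, ha, rfl⟩
  exact ⟨ξ a, h.inv a ha, (map_pow ξ a k).symm⟩

variable [Finite P]

theorem irr (h : AbM ξ n m A e) (H : Subgroup P) (hH : ∀ x ∈ H, ξ x ∈ H) (h1 : h.Pw 2 ≤ H)
    (h2 : H ≤ A) : H = h.Pw 2 ∨ H = A := by
  refine h.hig.irr_of_card (h.Pw_inv 2) h.inv ?_ H hH h1 h2
  let f : A →* P := MonoidHom.mk' (fun a => (a : P) ^ 2) (fun a b => (h.comm a a.2 b b.2).mul_pow 2)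
  have e1 : f.range = h.Pw 2 := by
    ext x
    exact ⟨fun ⟨a, ha⟩ => ⟨a, a.2, ha⟩, fun ⟨a, ha, e⟩ => ⟨⟨a, ha⟩, e⟩⟩
  rw [← f.ker.card_mul_index, Subgroup.index_ker, e1, ← h.hig.card_Z]
  apply Nat.mul_le_mul_right
  exact Nat.card_le_card_of_injective (fun x => ⟨x.1, by
    have : ((x.1 : A) : P) ^ 2 = 1 := x.2
    rwa [pow_two] at this⟩) (fun x y e => Subtype.ext (Subtype.ext
      (congrArg (fun z : h.hig.Z => (z : P)) e)))

theorem Om_eq (h : AbM ξ n m A e) : h.Om (e + 1) = h.Pw 2 := by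
  refine (h.irr _ (h.Om_inv _) ?_ (h.Om_le _)).resolve_right (fun e1 => ?_)
  · rintro _ ⟨b, hb, rfl⟩
    exact ⟨pow_mem hb 2, by rw [pow_two, sq_pow, h.exp b hb]⟩
  · obtain ⟨a, ha, ha'⟩ := h.exp'
    rw [← e1] at ha
    exact ha' ha.2

theorem sqrt (h : AbM ξ n m A e) {a : P} (ha : a ∈ A) (h1 : a ^ 2 ^ (e + 1) = 1) :
    ∃ b ∈ A, b * b = a := by
  have : a ∈ h.Om (e + 1) := ⟨ha, h1⟩
  rw [h.Om_eq] at this
  obtain ⟨b, hb, e1⟩ := this
  exact ⟨b, hb, by rw [← pow_two, e1]⟩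

theorem le_of_mem (h : AbM ξ n m A e) {B : Subgroup P} (hB : ∀ x ∈ B, ξ x ∈ B) (hBA : B ≤ A)
    {b : P} (hb : b ∈ B) (hb1 : b ^ 2 ^ (e + 1) ≠ 1) : A ≤ B := by
  have := h.Om_normal (e + 1)
  have h1 : B ⊔ h.Om (e + 1) = A := by
    refine (h.irr _ (fun x hx => ?_) (h.Om_eq ▸ le_sup_right)
      (sup_le hBA (h.Om_le _))).resolve_left (fun e1 => hb1 ?_)
    · obtain ⟨y, hy, z, hz, rfl⟩ := Subgroup.mem_sup_of_normal_right.1 hx
      rw [map_mul]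
      exact mul_mem (Subgroup.mem_sup_left (hB y hy)) (Subgroup.mem_sup_right (h.Om_inv _ z hz))
    · have : b ∈ B ⊔ h.Om (e + 1) := Subgroup.mem_sup_left hb
      rw [e1, ← h.Om_eq] at this
      exact this.2
  have key : ∀ i : ℕ, ∀ a ∈ A, ∃ b ∈ B, ∃ a' ∈ A, a = b * a' ^ 2 ^ i := by
    intro i
    induction i with
    | zero => exact fun a ha => ⟨1, one_mem _, a, ha, by simp⟩
    | succ i ih =>
      intro a ha
      obtain ⟨b, hb, a', ha', rfl⟩ := ih a ha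
      rw [← h1] at ha'
      obtain ⟨y, hy, z, hz, rfl⟩ := Subgroup.mem_sup_of_normal_right.1 ha'
      obtain ⟨w, hw, rfl⟩ := h.sqrt hz.1 hz.2
      refine ⟨b * y ^ 2 ^ i, mul_mem hb (pow_mem hy _), w, hw, ?_⟩
      rw [(h.comm y (hBA hy) _ hz.1).mul_pow, sq_pow, mul_assoc]
  intro a ha
  obtain ⟨b, hb, a', ha', rfl⟩ := key (e + 2) a ha
  rw [h.exp a' ha', mul_one]
  exact hb

/-- The elements of `A` whose displacements have order dividing `2 ^ j`. -/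
def DisSub (h : AbM ξ n m A e) (j : ℕ) : Subgroup P where
  carrier := {a | a ∈ A ∧ ∀ u, dis u a ∈ h.Om j}
  mul_mem' := fun {a b} ha hb => ⟨mul_mem ha.1 hb.1, fun u => by
    rw [h.dis_mul u ha.1 hb.1]; exact mul_mem (ha.2 u) (hb.2 u)⟩
  one_mem' := ⟨one_mem _, fun u => by simp [dis]⟩
  inv_mem' := fun {a} ha => ⟨inv_mem ha.1, fun u => by
    have := h.dis_mul u ha.1 (inv_mem ha.1)
    rw [mul_inv_cancel, show dis u 1 = 1 by simp [dis]] at this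
    rw [eq_inv_of_mul_eq_one_right this.symm]
    exact inv_mem (ha.2 u)⟩

theorem dis_pow_of_mem (h : AbM ξ n m A e) {j : ℕ} {b : P} (hb : b ∈ A)
    (hb1 : b ^ 2 ^ (e + 1) ≠ 1) (hb2 : ∀ u, dis u b ^ 2 ^ j = 1) {a : P} (ha : a ∈ A) (u : P) :
    dis u a ^ 2 ^ j = 1 := by
  have : A ≤ h.DisSub j := h.le_of_mem (fun x hx => ⟨h.inv x hx.1, fun u => by
    obtain ⟨u, rfl⟩ := ξ.surjective u
    rw [← map_dis]
    exact h.Om_inv j _ (hx.2 u)⟩) (fun x hx => hx.1) (b := b)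
      ⟨hb, fun u => ⟨h.dis_mem u hb, hb2 u⟩⟩ hb1
  exact ((this ha).2 u).2

theorem dis_pow (h : AbM ξ n m A e) {a : P} (ha : a ∈ A) (u : P) : dis u a ^ 2 ^ (e + 1) = 1 := by
  have := h.Om_normal (e + 1)
  have := h.normal
  have : Fact (Nat.Prime 2) := ⟨Nat.prime_two⟩
  obtain ⟨b, hb, hb1, -, hb2⟩ := H3.exists_mem_central_mod h.hig.pgroup (h.Om (e + 1)) A (fun hle => by
    obtain ⟨a, ha, ha'⟩ := h.exp'
    exact ha' (hle ha).2)
  refine h.dis_pow_of_mem hb (fun e1 => hb1 ⟨hb, e1⟩) (fun u => ?_) ha u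
  have := (inv_mem (hb2 u)).2
  rwa [commutatorElement_inv] at this

theorem desc (h : AbM ξ n m A e) {u : P} {s t : ℕ} (hst : t + s = e + 2)
    (ht : ∀ a ∈ A, dis u a ^ 2 ^ t = 1) (j : ℕ) (hj : j ≤ t) {a : P} (ha : a ∈ A)
    (h1 : a ^ 2 ^ (j + s) = 1) : dis u a ^ 2 ^ j = 1 := by
  obtain ⟨i, hi⟩ := Nat.exists_eq_add_of_le hj
  induction i generalizing j a with
  | zero => rw [add_zero] at hi; exact hi ▸ ht a ha
  | succ i ih =>
    obtain ⟨b, hb, rfl⟩ := h.sqrt ha (by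
      rw [show e + 1 = j + s + i by omega, pow_add, pow_mul, h1, one_pow])
    rw [h.dis_mul u hb hb, sq_pow]
    exact ih (j + 1) (by omega) hb (by rw [add_right_comm, ← sq_pow, h1]) (by omega)

theorem desc₁ (h : AbM ξ n m A e) (u : P) {j : ℕ} (hj : j ≤ e + 1) {a : P} (ha : a ∈ A)
    (h1 : a ^ 2 ^ (j + 1) = 1) : dis u a ^ 2 ^ j = 1 :=
  h.desc (s := 1) (t := e + 1) rfl (fun _ ha => h.dis_pow ha u) j hj ha h1

theorem Z_le (h : AbM ξ n m A e) : h.hig.Z ≤ A := h.hig.Z_le h.inv (fun e1 => by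
  obtain ⟨a, ha, ha'⟩ := h.exp'
  rw [e1, Subgroup.mem_bot] at ha
  exact ha' (by rw [ha, one_pow]))

/-- Higman's Lemma 2. -/
theorem lemma_two (h : AbM ξ n m A e) (hD : ∀ u, ∀ a ∈ A, dis u a ^ 2 ^ e = 1) (j : ℕ)
    (hj : j ≤ e + 1) {u : P} (hu : (u * u) ^ 2 ^ j = 1) : u ∈ A := by
  induction j generalizing u with
  | zero => exact h.Z_le (h.hig.mem_Z.2 (by simpa using hu))
  | succ j ih =>
    obtain ⟨b, hb, e1⟩ := h.sqrt (h.sq u) (by
      obtain ⟨i, hi⟩ := Nat.exists_eq_add_of_le hj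
      rw [hi, pow_add, pow_mul, hu, one_pow])
    have h1 : dis u b ^ 2 ^ j = 1 := h.desc (s := 2) (t := e) rfl (hD u) j (by omega) hb
      (by rw [← sq_pow, e1, hu])
    have h2 : (b⁻¹ * u) * (b⁻¹ * u) = (dis u b)⁻¹ := by
      have c := (h.comm b hb _ (inv_mem (h.dis_mem u hb))).eq
      calc (b⁻¹ * u) * (b⁻¹ * u) = b⁻¹ * b⁻¹ * (dis u b)⁻¹ * (u * u) := by unfold dis; group
        _ = b⁻¹ * b⁻¹ * ((dis u b)⁻¹ * b) * b := by rw [← e1]; group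
        _ = b⁻¹ * b⁻¹ * b * ((dis u b)⁻¹ * b) := by
            conv_lhs => rw [← c]
            group
        _ = _ := by rw [← c]; group
    have := ih (by omega) (u := b⁻¹ * u) (by rw [h2, inv_pow, h1, inv_one])
    simpa using mul_mem hb this

variable {F : Type*} [Field F] [CharP F 2] {c₀ : P → F} {l : F}

theorem pow_mem_Z (h : HigM ξ n m) {x : P} {j : ℕ} (hx : x ^ 2 ^ (j + 1) = 1) : x ^ 2 ^ j ∈ h.Z := by
  rw [HigM.mem_Z, pow_mul_pow_self, hx]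

theorem coordA (h : AbM ξ n m A e) (hc : IsCoord ξ h.hig.Z ⊥ c₀ l) :
    IsCoord ξ A (h.Om (e + 1)) (fun a => c₀ (a ^ 2 ^ (e + 1))) l := by
  refine ⟨h.Om_le _, h.inv, fun x hx y hy => ?_, fun x hx => ?_, fun t => ?_, fun x hx => ?_⟩
  · rw [(h.comm x hx y hy).mul_pow,
      hc.mul _ (pow_mem_Z h.hig (h.exp x hx)) _ (pow_mem_Z h.hig (h.exp y hy))]
  · rw [hc.zero_iff _ (pow_mem_Z h.hig (h.exp x hx)), Subgroup.mem_bot]
    exact ⟨fun e => ⟨hx, e⟩, fun e => e.2⟩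
  · obtain ⟨z, hz, rfl⟩ := hc.surj t
    obtain ⟨a, ha, rfl⟩ := h.hig.Z_le (h.Pw_inv (2 ^ (e + 1))) (fun e1 => by
      obtain ⟨a, ha, ha'⟩ := h.exp'
      have : a ^ 2 ^ (e + 1) ∈ h.Pw (2 ^ (e + 1)) := ⟨a, ha, rfl⟩
      rw [e1] at this
      exact ha' this) hz
    exact ⟨a, ha, rfl⟩
  · rw [← map_pow, hc.equiv _ (pow_mem_Z h.hig (h.exp x hx))]

theorem exists_eta (h : AbM ξ n m A e) (hc : IsCoord ξ h.hig.Z ⊥ c₀ l) {c₁ : P → F} {μ : F}
    {C : Subgroup P} (hc₁ : IsCoord ξ C A c₁ μ) :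
    ∃ η : F → F → F, BiAdd η ∧ (∀ s t, η (l * s) (μ * t) = l * η s t) ∧
      ∀ a ∈ A, ∀ u ∈ C, η (c₀ (a ^ 2 ^ (e + 1))) (c₁ u) = c₀ (dis u a ^ 2 ^ e) := by
  have hz : ∀ a ∈ A, ∀ u, dis u a ^ 2 ^ e ∈ h.hig.Z := fun a ha u =>
    pow_mem_Z h.hig (h.dis_pow ha u)
  obtain ⟨η, h1, h2, h3⟩ := (h.coordA hc).descend₂ hc₁ (fun a u => c₀ (dis u a ^ 2 ^ e))
    (fun a ha a' ha' u _ => by
      rw [h.dis_mul u ha ha', (h.comm _ (h.dis_mem u ha) _ (h.dis_mem u ha')).mul_pow,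
        hc.mul _ (hz a ha u) _ (hz a' ha' u)])
    (fun a ha u _ v _ => by
      have m1 := h.dis_mem u ha
      have m2 := h.dis_mem v ha
      have m3 := h.dis_mem u m2
      rw [dis_mul_left, (h.comm _ (mul_mem m3 m2) _ m1).mul_pow, (h.comm _ m3 _ m2).mul_pow,
        h.desc₁ u (by omega) m2 (h.dis_pow ha v), one_mul, hc.mul _ (hz a ha v) _ (hz a ha u),
        add_comm])
    (fun a ha u _ => by rw [h.desc₁ u (by omega) ha.1 ha.2, hc.one])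
    (fun a ha u hu => by rw [h.dis_eq_one hu ha, one_pow, hc.one])
    (l := l) (fun a ha u _ => by rw [← map_dis, ← map_pow, hc.equiv _ (hz a ha u)])
  exact ⟨η, h1, h2, h3⟩

theorem dis_sq (h : AbM ξ n m A e) (u v : P) :
    dis v (u * u) = dis u⁻¹ (kap u v) * (kap u v * kap u v) := by
  rw [← h.kap_left (h.sq u), kap_mul_left]
  unfold dis; group

theorem exists_B (h : AbM ξ n m A e) (hc : IsCoord ξ h.hig.Z ⊥ c₀ l) {c₁ : P → F} {μ : F}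
    (hc₁ : IsCoord ξ ⊤ A c₁ μ) {u₀ : P} (hu₀ : (u₀ * u₀) ^ 2 ^ (e + 1) ≠ 1) {j : ℕ}
    (hj : j ≤ e + 1) (hk : ∀ u v : P, kap u v ^ 2 ^ (j + 1) = 1) :
    ∃ B : F → F → F, BiAdd B ∧ (∀ s t, B (μ * s) (μ * t) = l * B s t) ∧ (∀ s, B s s = 0) ∧
      ∀ u v, B (c₁ u) (c₁ v) = c₀ (kap u v ^ 2 ^ j) := by
  have hz : ∀ u v : P, kap u v ^ 2 ^ j ∈ h.hig.Z := fun u v => pow_mem_Z h.hig (hk u v)
  have hd : ∀ w u v : P, dis w (kap u v) ^ 2 ^ j = 1 := fun w u v =>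
    h.desc₁ w hj (h.kap_mem u v) (hk u v)
  have hA : ∀ a ∈ A, ∀ v, dis v a ^ 2 ^ j = 1 := fun a ha v =>
    h.dis_pow_of_mem (h.sq u₀) hu₀ (fun v => by
      rw [h.dis_sq, (h.comm _ (h.dis_mem _ (h.kap_mem _ _)) _ (h.sq _)).mul_pow, hd, sq_pow, hk,
        one_mul]) ha v
  obtain ⟨B, h1, h2, h3⟩ := hc₁.descend₂ hc₁ (fun u v => c₀ (kap u v ^ 2 ^ j))
    (fun x _ x' _ y _ => by
      have m1 := h.kap_mem x y
      have m2 := h.kap_mem x' y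
      have m3 := h.dis_mem x'⁻¹ m1
      have : kap (x * x') y = dis x'⁻¹ (kap x y) * kap x y * kap x' y := by
        rw [kap_mul_left]; unfold dis; group
      rw [this, (h.comm _ (mul_mem m3 m1) _ m2).mul_pow, (h.comm _ m3 _ m1).mul_pow, hd, one_mul,
        hc.mul _ (hz _ _) _ (hz _ _)])
    (fun x _ y _ y' _ => by
      have m1 := h.kap_mem x y
      have m2 := h.kap_mem x y'
      have m3 := h.dis_mem y m2
      have : kap x (y * y') = kap x y * (dis y (kap x y') * kap x y') := by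
        rw [kap_mul_right]; unfold dis; group
      rw [this, (h.comm _ m1 _ (mul_mem m3 m2)).mul_pow, (h.comm _ m3 _ m2).mul_pow, hd, one_mul,
        hc.mul _ (hz _ _) _ (hz _ _)])
    (fun a ha u _ => by rw [h.kap_left ha, hA a ha, hc.one])
    (fun u _ a ha => by rw [kap_right, hA a ha, hc.one])
    (l := l) (fun u _ v _ => by rw [← map_kap, ← map_pow, hc.equiv _ (hz _ _)])
  refine ⟨B, h1, h2, fun s => ?_, fun u v => h3 u trivial v trivial⟩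
  obtain ⟨x, -, rfl⟩ := hc₁.surj s
  rw [h3 x trivial x trivial, kap_self, one_pow, hc.one]

end AbM

end Cfsg.Agent.SZ2
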