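import Cfsg.Agent.SZ2.Good

/-! The eigenvalue lemmas of Higman's theorem for eigenvalues of a `Good` order. -/

set_option autoImplicit false

namespace Cfsg.Agent.SZ2

open H41 Finset

namespace Good

variable {n m : ℕ}

theorem n_ne (h : Good n m) : n ≠ 0 := by have := h.two_le; omega

theorem pos (h : Good n m) : 0 < m := by
  refine Nat.pos_of_dvd_of_pos h.dvd ?_
  have := Nat.one_lt_two_pow h.n_ne
  omega

theorem odd (h : Good n m) : Odd m :=
  (Nat.Even.sub_odd Nat.one_le_two_pow (Nat.even_pow.2 ⟨even_two, h.n_ne⟩) odd_one).of_dvd_nat h.dvd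

theorem ne_one (h : Good n m) : m ≠ 1 := fun e =>
  have : NeZero n := ⟨h.n_ne⟩
  zmod_one_ne_zero h.two_le (h.p1 1 0 0 (by rw [e]; exact Nat.modEq_one))

theorem dvd_of_dvd (h : Good n m) {j : ℕ} (hj : m ∣ 2 ^ j - 1) : n ∣ j := by
  have : NeZero n := ⟨h.n_ne⟩
  have : Fact (1 < n) := ⟨h.two_le⟩
  rw [← ZMod.natCast_eq_zero_iff]
  refine h.p1 _ 0 1 ?_
  rw [ZMod.val_natCast, ZMod.val_zero, ZMod.val_one]
  have h1 : 2 ^ j ≡ 1 [MOD m] := ((Nat.modEq_iff_dvd' Nat.one_le_two_pow).2 hj).symm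
  exact (((two_pow_mod n j).of_dvd h.dvd).trans h1).add_right 1

variable {F : Type*} [Field F]

theorem fr_prim (h : Good n m) (i : ZMod n) {μ : F} (hμ : IsPrimitiveRoot μ m) :
    IsPrimitiveRoot (fr i μ) m :=
  hμ.pow_of_coprime _ (Nat.Coprime.pow_left _ (Nat.coprime_two_left.2 h.odd))

theorem fr_ne_one (h : Good n m) {μ : F} (hμ : IsPrimitiveRoot μ m) (i : ZMod n) : fr i μ ≠ 1 :=
  (h.fr_prim i hμ).ne_one (by have := h.pos; have := h.ne_one; omega)

theorem q1 (h : Good n m) {μ : F} (hμ : IsPrimitiveRoot μ m) {i j k : ZMod n}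
    (e : fr i μ * fr j μ = fr k μ) : i = j := by
  simp only [fr, ← pow_add] at e
  exact h.p1 i j k ((prim_pow_iff hμ h.pos).1 e)

theorem coprime_of (h : Good n m) {l ν : F} (hl : IsPrimitiveRoot l m) (hν : IsPrimitiveRoot ν m)
    {k : ZMod n} (e : fr k l * ν = l) : (2 ^ k.val - 1).Coprime m := by
  have hl0 : l ≠ 0 := hl.ne_zero h.pos.ne'
  have e1 : l ^ (2 ^ k.val - 1) * ν = 1 := by
    apply mul_left_cancel₀ hl0
    rw [← mul_assoc, ← pow_succ', Nat.sub_add_cancel Nat.one_le_two_pow, mul_one]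
    exact e
  obtain ⟨a, ha⟩ := Nat.gcd_dvd_left (2 ^ k.val - 1) m
  obtain ⟨b, hb⟩ := Nat.gcd_dvd_right (2 ^ k.val - 1) m
  set g := Nat.gcd (2 ^ k.val - 1) m
  have e2 : ν ^ b = 1 := by
    have := congrArg (· ^ b) e1
    simp only [mul_pow, one_pow] at this
    rwa [← pow_mul, ha, mul_right_comm, ← hb, pow_mul, hl.pow_eq_one, one_pow, one_mul] at this
  have h3 := Nat.le_of_dvd (Nat.pos_of_mul_pos_left (hb ▸ h.pos)) (hν.dvd_of_pow_eq_one b e2)
  have h4 : 0 < b := Nat.pos_of_mul_pos_left (hb ▸ h.pos)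
  have h5 : 0 < g := Nat.pos_of_mul_pos_right (hb ▸ h.pos)
  show g = 1
  by_contra hg
  have : 2 * b ≤ g * b := Nat.mul_le_mul_right _ (by omega)
  omega

variable [Fintype F] [CharP F 2] [NeZero n]

theorem alt_eq_zero (h : Good n m) (hF : Fintype.card F = 2 ^ n) {B : F → F → F} (hB : BiAdd B)
    {μ : F} (hμ : IsPrimitiveRoot μ m) (k : ZMod n)
    (he : ∀ x y, B (μ * x) (μ * y) = fr k μ * B x y) (halt : ∀ x, B x x = 0) (x y : F) :
    B x y = 0 := by
  by_contra h0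
  obtain ⟨i, j, hij, e⟩ := hB.alt_eigen hF he halt ⟨x, y, h0⟩
  exact hij (h.q1 hμ e)

theorem idem_eq_zero (hg : Good n m) (hF : Fintype.card F = 2 ^ n) {η : F → F → F}
    (hη : BiAdd η) {μ l : F} (hμ : IsPrimitiveRoot μ m)
    (hl : IsPrimitiveRoot l m) (he : ∀ s x, η (l * s) (μ * x) = l * η s x)
    (hid : ∀ s x, η (η s x) x = η s x) (s x : F) : η s x = 0 := by
  have hsym : ∀ s x x', η (η s x) x' = η (η s x') x := fun s x x' => by
    have := hid s (x + x')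
    rw [hη.right, hη.right, hη.left, hη.left, hid, hid] at this
    apply CharTwo.add_eq_zero.1
    linear_combination this
  choose e he1 he2 using fun s => sym_diag hF hη he (hη.right s) (hsym s)
  obtain ⟨c, hc, hc'⟩ := hη.exists_eq_sum_equiv hF he
  have : ∀ i j, c i j = 0 := by
    intro i j
    by_contra h
    obtain ⟨s, hs⟩ := coeff_row_ne_zero hF h hc (fun s x => by rw [← he1, hid])
    obtain ⟨k, hk⟩ := he2 s j hs
    have h1 := hc' i j h
    have hl0 : l ≠ 0 := hl.ne_zero hg.pos.ne'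
    have h2 : fr k l * fr k l = fr (0 : ZMod n) l * fr i l := by
      rw [show j = j - 1 + 1 by ring, fr_succ hF] at h1
      rw [fr_zero]
      apply mul_right_cancel₀ hl0
      calc fr k l * fr k l * l
          = fr k l * fr k l * (fr i l * (fr (j - 1) μ * fr (j - 1) μ)) := by rw [h1]
        _ = (fr k l * fr (j - 1) μ) * (fr k l * fr (j - 1) μ) * fr i l := by ring
        _ = _ := by rw [hk]; ring
    rw [← fr_succ hF] at h2
    have h3 : i = 0 := (hg.q1 hl h2.symm).symm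
    rw [h3, fr_zero] at h1
    exact hg.fr_ne_one hμ j (mul_left_cancel₀ hl0 (h1.trans (mul_one _).symm))
  rw [hc]; simp [this]

theorem bab_eq_zero (hg : Good n m) (hF : Fintype.card F = 2 ^ n) {β γ₁ γ₂ : F → F → F}
    (hβ : BiAdd β) (hγ₁ : BiAdd γ₁) (hγ₂ : BiAdd γ₂) {μ₁ μ₂ l : F}
    (hμ₁ : IsPrimitiveRoot μ₁ m) (hμ₂ : IsPrimitiveRoot μ₂ m)
    (hl : IsPrimitiveRoot l m) (he : ∀ x y, β (μ₁ * x) (μ₂ * y) = l * β x y)
    (he₁ : ∀ s x, γ₁ (l * s) (μ₁ * x) = l * γ₁ s x)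
    (he₂ : ∀ s x, γ₂ (l * s) (μ₂ * x) = l * γ₂ s x)
    (hs₁ : ∀ x x' y, γ₁ (β x y) x' = γ₁ (β x' y) x) (hd₁ : ∀ x y, γ₁ (β x y) x = β x y)
    (hs₂ : ∀ x y y', γ₂ (β x y) y' = γ₂ (β x y') y) (hd₂ : ∀ x y, γ₂ (β x y) y = β x y)
    (x y : F) : β x y = 0 := by
  choose e₁ h11 h12 using fun y => sym_diag hF hγ₁ he₁ (g := fun x => β x y)
    (fun x x' => hβ.left x x' y) (fun x x' => hs₁ x x' y)
  choose e₂ h21 h22 using fun x => sym_diag hF hγ₂ he₂ (hβ.right x) (hs₂ x)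
  obtain ⟨c, hc, hc'⟩ := hβ.exists_eq_sum_equiv hF he
  have : ∀ i j, c i j = 0 := by
    intro i j
    by_contra h
    obtain ⟨s, hs⟩ := coeff_row_ne_zero hF h hc (fun s x => by rw [← h21, hd₂])
    obtain ⟨k', hk'⟩ := h22 s j hs
    obtain ⟨s', hs'⟩ := coeff_row_ne_zero hF (c := fun j i => c i j) (B := fun y x => β x y) h
      (fun y x => by
        rw [hc, sum_comm]
        exact sum_congr rfl fun i _ => sum_congr rfl fun j _ => by ring)
      (fun s x => by rw [← h11, hd₁])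
    obtain ⟨k, hk⟩ := h12 s' i hs'
    have h1 := hc' i j h
    have hl0 : l ≠ 0 := hl.ne_zero hg.pos.ne'
    have h2 : fr (k + 1) l * fr (k' + 1) l = fr (0 + 1 : ZMod n) l * fr (0 : ZMod n) l := by
      rw [show j = j - 1 + 1 by ring, show i = i - 1 + 1 by ring, fr_succ hF, fr_succ hF] at h1
      rw [fr_succ hF, fr_succ hF, fr_succ hF, fr_zero]
      apply mul_right_cancel₀ hl0
      calc fr k l * fr k l * (fr k' l * fr k' l) * l
          = fr k l * fr k l * (fr k' l * fr k' l) *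
            (fr (i - 1) μ₁ * fr (i - 1) μ₁ * (fr (j - 1) μ₂ * fr (j - 1) μ₂)) := by rw [h1]
        _ = (fr k l * fr (i - 1) μ₁) * (fr k l * fr (i - 1) μ₁) * (fr k' l * fr (j - 1) μ₂) *
            (fr k' l * fr (j - 1) μ₂) := by ring
        _ = _ := by rw [hk, hk']
    simp only [fr, ← pow_add] at h2
    exact hg.p2 k k' ((prim_pow_iff hl hg.pos).1 h2) (hg.coprime_of hl (hg.fr_prim _ hμ₁) hk)
      (hg.coprime_of hl (hg.fr_prim _ hμ₂) hk')
  rw [hc]; simp [this]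

theorem cubic_eq_zero (hg : Good n m) (hF : Fintype.card F = 2 ^ n) {η : F → F → F}
    (hη : BiAdd η) {μ l : F} (hμ : IsPrimitiveRoot μ m) {i j : ZMod n} (hij : i ≠ j)
    (hl : fr i μ * fr j μ = l) (he : ∀ s x, η (l * s) (μ * x) = l * η s x)
    {s₀ x₀ : F} (hs₀ : s₀ ≠ 0) (hx₀ : x₀ ≠ 0) (h0 : η s₀ x₀ = 0) (s x : F) : η s x = 0 := by
  obtain ⟨c, hc, hc'⟩ := hη.exists_eq_sum_equiv hF he
  obtain ⟨a₀, b₀, hab⟩ : ∃ a₀ b₀, ∀ a b, c a b ≠ 0 → a = a₀ ∧ b = b₀ := by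
    obtain ⟨a₀, b₀, hab⟩ := hg.p3 i j hij
    refine ⟨a₀, b₀, fun a b h => hab a b ?_⟩
    have h1 := hc' a b h
    rw [← hl, fr_mul, fr_fr hF, fr_fr hF] at h1
    simp only [fr, ← pow_add] at h1
    exact (prim_pow_iff hμ hg.pos).1 h1
  have h1 : ∀ s x, η s x = c a₀ b₀ * (fr a₀ s * fr b₀ x) := fun s x => by
    rw [hc, sum_eq_single a₀ _ (by simp), sum_eq_single b₀ _ (by simp)]
    · intro b _ hb
      by_cases h : c a₀ b = 0
      · rw [h, zero_mul]
      · exact absurd (hab _ _ h).2 hb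
    · intro a _ ha
      refine sum_eq_zero fun b _ => ?_
      by_cases h : c a b = 0
      · rw [h, zero_mul]
      · exact absurd (hab _ _ h).1 ha
  rw [h1] at h0 ⊢
  rw [(mul_eq_zero.1 h0).resolve_right (mul_ne_zero (fr_ne_zero hs₀) (fr_ne_zero hx₀)), zero_mul]

end Good

end Cfsg.Agent.SZ2
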