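import Cfsg.Agent.SZ2.Alg

/-! Two-groups with central involutions and an automorphism of `Good` order all of whose
non-trivial powers are fixed-point-free: basic facts (adapted from `H41.HigmanBase`). -/

set_option autoImplicit false

namespace Cfsg.Agent.SZ2

open H41

theorem exists_coord_moduleM {V : Type*} [AddCommGroup V] [Finite V] [Nontrivial V]
    (h2 : ∀ v : V, v + v = 0) (T : AddMonoid.End V) {n m : ℕ} (hg : Good n m)
    (hT : ∀ k : ℕ, T ^ k = 1 ↔ m ∣ k)
    (hirr : ∀ W : AddSubgroup V, (∀ v ∈ W, T v ∈ W) → W = ⊥ ∨ W = ⊤)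
    (F : Type*) [Field F] [Fintype F] (hF : Fintype.card F = 2 ^ n) :
    ∃ (c : V ≃+ F) (μ : F), IsPrimitiveRoot μ m ∧ ∀ v, c (T v) = μ * c v := by
  classical
  have hq : 1 < 2 ^ n := Nat.one_lt_two_pow hg.n_ne
  let R : Subring (AddMonoid.End V) := Subring.closure {T}
  have hTR : T ∈ R := Subring.subset_closure rfl
  have hcT : ∀ x ∈ R, Commute T x := fun x hx => by
    induction hx using Subring.closure_induction with
    | mem x hx => rw [hx]
    | zero => exact Commute.zero_right _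
    | one => exact Commute.one_right _
    | add x y _ _ hx hy => exact hx.add_right hy
    | neg x _ hx => exact hx.neg_right
    | mul x y _ _ hx hy => exact hx.mul_right hy
  have hcomm : ∀ x ∈ R, ∀ y ∈ R, Commute x y := fun x hx y hy => by
    induction hx using Subring.closure_induction with
    | mem x hx => rw [hx]; exact hcT y hy
    | zero => exact Commute.zero_left _
    | one => exact Commute.one_left _
    | add x y _ _ hx hy => exact hx.add_left hy
    | neg x _ hx => exact hx.neg_left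
    | mul x y _ _ hx hy => exact hx.mul_left hy
  have hinj : ∀ x ∈ R, x ≠ 0 → ∀ v, x v = 0 → v = 0 := by
    intro x hx hx0 v hv
    rcases hirr (AddMonoidHom.ker x) (fun w hw => by
      have := DFunLike.congr_fun (hcT x hx).eq w
      exact this.symm.trans ((congrArg T hw).trans (map_zero T))) with h | h
    · have : v ∈ AddMonoidHom.ker x := hv
      rwa [h, AddSubgroup.mem_bot] at this
    · exact absurd (AddMonoidHom.ker_eq_top_iff.1 h) hx0
  have : Finite (AddMonoid.End V) :=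
    Finite.of_injective (fun f : AddMonoid.End V => (f : V → V)) DFunLike.coe_injective
  obtain ⟨v₀, hv₀⟩ := exists_ne (0 : V)
  have h10 : (1 : AddMonoid.End V) ≠ 0 := fun h => hv₀ (DFunLike.congr_fun h v₀)
  have hfield : IsField R := by
    refine ⟨⟨1, 0, fun h => h10 (congrArg Subtype.val h)⟩,
      fun x y => Subtype.ext (hcomm x x.2 y y.2).eq, fun {x} hx => ?_⟩
    have hx0 : (x : AddMonoid.End V) ≠ 0 := fun h => hx (Subtype.ext h)
    have : Function.Injective (fun y : R => x * y) := by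
      intro y y' h
      apply Subtype.ext
      ext v
      have h1 : (x : AddMonoid.End V) ((y : AddMonoid.End V) v) =
        (x : AddMonoid.End V) ((y' : AddMonoid.End V) v) :=
          DFunLike.congr_fun (congrArg Subtype.val h) v
      exact sub_eq_zero.1 (hinj x x.2 hx0 _ (by rw [map_sub, h1, sub_self]))
    exact Finite.surjective_of_injective this 1
  have hchar : CharP (AddMonoid.End V) 2 :=
    CharTwo.of_one_ne_zero_of_two_eq_zero h10 (by
      ext v
      rw [← one_add_one_eq_two]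
      exact h2 v)
  have : Fact (Nat.Prime 2) := ⟨Nat.prime_two⟩
  have hpow : ∀ x ∈ R, x ^ 2 ^ n = x := fun x hx => by
    induction hx using Subring.closure_induction with
    | mem x hx =>
      rw [hx, ← Nat.sub_add_cancel hq.le, pow_succ, (hT _).2 hg.dvd, one_mul]
    | zero => exact zero_pow (by omega)
    | one => exact one_pow _
    | add x y hx' hy' hx hy => rw [add_pow_char_pow_of_commute _ _ (hcomm x hx' y hy'), hx, hy]
    | neg x _ hx => rw [CharTwo.neg_eq, hx]
    | mul x y hx' hy' hx hy => rw [(hcomm x hx' y hy').mul_pow, hx, hy]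
  let _ : Field R := hfield.toField
  let _ : Fintype R := Fintype.ofFinite R
  have hprimR : IsPrimitiveRoot (⟨T, hTR⟩ : R) m :=
    ⟨Subtype.ext ((hT _).2 dvd_rfl), fun k hk => (hT k).1 (congrArg Subtype.val hk)⟩
  have hcard : Fintype.card R = Fintype.card F := by
    have hT0 : (⟨T, hTR⟩ : R) ≠ 0 := hprimR.ne_zero hg.pos.ne'
    have h1 : m ∣ Fintype.card R - 1 :=
      hprimR.dvd_of_pow_eq_one _ (FiniteField.pow_card_sub_one_eq_one _ hT0)
    obtain ⟨g, hg'⟩ := IsCyclic.exists_ofOrder_eq_natCard (α := Rˣ)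
    have h3 : Fintype.card R - 1 ∣ 2 ^ n - 1 := by
      rw [← Fintype.card_units, ← Nat.card_eq_fintype_card, ← hg']
      apply orderOf_dvd_of_pow_eq_one
      have : g ^ 2 ^ n = g := Units.ext (Subtype.ext (hpow _ (g : R).2))
      rw [← Nat.sub_add_cancel hq.le, pow_succ] at this
      exact mul_eq_right.1 this
    have : CharP R 2 := CharTwo.of_one_ne_zero_of_two_eq_zero one_ne_zero
      (Subtype.ext (CharTwo.two_eq_zero (R := AddMonoid.End V)))
    obtain ⟨j, -, hj⟩ := FiniteField.card R 2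
    rw [hj] at h1 h3 ⊢
    have h4 := hg.dvd_of_dvd h1
    rw [← Nat.gcd_eq_left_iff_dvd, Nat.pow_sub_one_gcd_pow_sub_one] at h3
    have h5 := Nat.one_le_two_pow (n := (j : ℕ).gcd n)
    have h6 := Nat.one_le_two_pow (n := (j : ℕ))
    have h7 : (j : ℕ).gcd n = j := Nat.pow_right_injective le_rfl (by simp only; omega)
    rw [hF, Nat.dvd_antisymm h4 (Nat.gcd_eq_left_iff_dvd.1 h7)]
  let e : R ≃+* F := FiniteField.ringEquivOfCardEq hcard
  let ev : R →+ V := AddMonoidHom.mk' (fun r => (r : AddMonoid.End V) v₀) (fun r s => rfl)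
  have hev : Function.Bijective ev := by
    constructor
    · rw [injective_iff_map_eq_zero]
      intro r hr
      by_contra h
      exact hv₀ (hinj r r.2 (fun h' => h (Subtype.ext h')) v₀ hr)
    · rw [← AddMonoidHom.range_eq_top]
      refine (hirr ev.range ?_).resolve_left (fun h => hv₀ ?_)
      · rintro _ ⟨r, rfl⟩
        exact ⟨⟨T, hTR⟩ * r, rfl⟩
      · have : v₀ ∈ ev.range := ⟨1, rfl⟩
        rwa [h, AddSubgroup.mem_bot] at this
  refine ⟨(AddEquiv.ofBijective ev hev).symm.trans e.toAddEquiv, e ⟨T, hTR⟩,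
    hprimR.map_of_injective e.injective, fun v => ?_⟩
  obtain ⟨r, rfl⟩ := hev.2 v
  have h1 : T (ev r) = ev (⟨T, hTR⟩ * r) := rfl
  have h3 : ∀ r, (AddEquiv.ofBijective ev hev).symm (ev r) = r := fun r =>
    (AddEquiv.ofBijective ev hev).symm_apply_apply r
  rw [h1]
  simp only [AddEquiv.trans_apply, h3]
  exact map_mul e _ _

/-- Coordinates on an irreducible elementary abelian section. -/
theorem exists_isCoordM {G : Type*} [Group G] [Finite G] {ξ : MulAut G} {n m : ℕ} (hg : Good n m)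
    (h1 : ξ ^ m = 1)
    (hfpf : ∀ (k : ℕ) (x : G), (ξ ^ k) x = x → x = 1 ∨ m ∣ k) {C A : Subgroup G}
    (hlt : A < C) (hA : ∀ x ∈ A, ξ x ∈ A) (hC : ∀ x ∈ C, ξ x ∈ C) (hsq : ∀ x ∈ C, x * x ∈ A)
    (hirr : ∀ H : Subgroup G, (∀ x ∈ H, ξ x ∈ H) → A ≤ H → H ≤ C → H = A ∨ H = C)
    (F : Type*) [Field F] [Fintype F] (hF : Fintype.card F = 2 ^ n) :
    ∃ (c : G → F) (μ : F), IsPrimitiveRoot μ m ∧ IsCoord ξ C A c μ := by
  classical
  set N := A.subgroupOf C with hNdef
  have hN : N.Normal := normal_of_sq_mem (fun x => hsq x x.2)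
  have hQ : ∀ x : C ⧸ N, x * x = 1 := fun x => by
    obtain ⟨x, rfl⟩ := QuotientGroup.mk_surjective x
    exact (QuotientGroup.eq_one_iff _).2 (hsq x x.2)
  let _ : CommGroup (C ⧸ N) := { (inferInstance : Group (C ⧸ N)) with mul_comm := mul_comm_of_sq hQ }
  let ξC : C →* C := (ξ.toMonoidHom.comp C.subtype).codRestrict C (fun x => hC x x.2)
  let T₀ : C ⧸ N →* C ⧸ N := QuotientGroup.map N N ξC (fun x hx => hA x hx)
  let T : AddMonoid.End (Additive (C ⧸ N)) := MonoidHom.toAdditive T₀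
  have hTk : ∀ (k : ℕ) (x : C), (T ^ k) (Additive.ofMul (x : C ⧸ N)) =
      Additive.ofMul ((⟨(ξ ^ k) x, pow_apply_mem hC k x.2⟩ : C) : C ⧸ N) := by
    intro k x
    induction k with
    | zero => rfl
    | succ k ih =>
      rw [pow_succ', AddMonoid.End.coe_mul, Function.comp_apply, ih]
      simp only [pow_succ']
      rfl
  obtain ⟨x₀, hx₀, hx₀'⟩ := SetLike.exists_of_lt hlt
  have : Nontrivial (Additive (C ⧸ N)) :=
    ⟨⟨Additive.ofMul ((⟨x₀, hx₀⟩ : C) : C ⧸ N), 0, fun h =>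
      hx₀' ((QuotientGroup.eq_one_iff (N := N) (⟨x₀, hx₀⟩ : C)).1 h)⟩⟩
  obtain ⟨c, μ, hμ, hc⟩ := exists_coord_moduleM (V := Additive (C ⧸ N)) hQ T hg (fun k => by
    constructor
    · intro hk
      by_contra hnd
      have h2 := hTk k ⟨x₀, hx₀⟩
      rw [hk] at h2
      exact hx₀' (mem_of_fpf (fun x hx => (hfpf k x hx).resolve_right hnd)
        (fun x hx => pow_apply_mem hA k hx) (QuotientGroup.eq (s := N).1 h2))
    · rintro ⟨j, rfl⟩
      ext v
      obtain ⟨x, rfl⟩ := QuotientGroup.mk_surjective (s := N) v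
      refine (hTk _ x).trans ?_
      simp only [pow_mul, h1, one_pow]
      rfl) (fun W hW => by
    let H : Subgroup G := ((AddSubgroup.toSubgroup' W).comap (QuotientGroup.mk' N)).map C.subtype
    rcases hirr H (by
      rintro _ ⟨x, hx, rfl⟩
      exact ⟨ξC x, hW _ hx, rfl⟩) (fun a ha => ⟨⟨a, hlt.le ha⟩, by
        have : QuotientGroup.mk' N ⟨a, hlt.le ha⟩ = 1 := (QuotientGroup.eq_one_iff _).2 ha
        rw [SetLike.mem_coe, Subgroup.mem_comap, this]
        exact one_mem _, rfl⟩) (Subgroup.map_subtype_le _) with h | h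
    · left
      rw [eq_bot_iff]
      intro v hv
      obtain ⟨x, rfl⟩ := QuotientGroup.mk_surjective (s := N) v
      have : (x : G) ∈ H := ⟨x, hv, rfl⟩
      rw [h] at this
      exact (QuotientGroup.eq_one_iff x).2 this
    · right
      rw [eq_top_iff]
      intro v _
      obtain ⟨x, rfl⟩ := QuotientGroup.mk_surjective (s := N) v
      have : (x : G) ∈ H := by rw [h]; exact x.2
      obtain ⟨y, hy, e⟩ := this
      rw [← Subtype.ext e]
      exact hy) F hF
  refine ⟨fun x => if hx : x ∈ C then c (Additive.ofMul ((⟨x, hx⟩ : C) : C ⧸ N)) else 0, μ, hμ,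
    hlt.le, hC, fun x hx y hy => ?_, fun x hx => ?_, fun t => ?_, fun x hx => ?_⟩
  · rw [dif_pos hx, dif_pos hy, dif_pos (mul_mem hx hy), ← map_add]
    rfl
  · rw [dif_pos hx, map_eq_zero_iff c c.injective]
    exact QuotientGroup.eq_one_iff _
  · obtain ⟨v, rfl⟩ := c.surjective t
    obtain ⟨x, rfl⟩ := QuotientGroup.mk_surjective (s := N) v
    exact ⟨x, x.2, dif_pos x.2⟩
  · rw [dif_pos hx, dif_pos (hC x hx), ← hc]
    rfl

/-- In exponent four the order is at most the cube of the number of solutions of `x² = 1`. -/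
theorem card_le_cube {P : Type*} [Group P] [Finite P] (Z : Subgroup P)
    (hZ : ∀ x, x ∈ Z ↔ x * x = 1) (hc : ∀ z ∈ Z, ∀ y, z * y = y * z)
    (h4 : ∀ x : P, x * x ∈ Z) : Nat.card P ≤ Nat.card Z ^ 3 := by
  classical
  have hconj : ∀ z ∈ Z, ∀ y, y⁻¹ * z * y = z := fun z hz y => by rw [← hc z hz]; group
  have hN : Z.Normal := ⟨fun z hz y => by rw [← hc z hz, mul_inv_cancel_right]; exact hz⟩
  have : Fact (Nat.Prime 2) := ⟨Nat.prime_two⟩
  have hQ : ∀ x : P ⧸ Z, x * x = 1 := fun x => by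
    obtain ⟨x, rfl⟩ := QuotientGroup.mk_surjective x
    exact (QuotientGroup.eq_one_iff _).2 (h4 x)
  let _ : CommGroup (P ⧸ Z) :=
    { (inferInstance : Group (P ⧸ Z)) with mul_comm := mul_comm_of_sq hQ }
  let _ : Module (ZMod 2) (Additive (P ⧸ Z)) := AddCommGroup.zmodModule (fun x => by
    rw [two_nsmul]; exact hQ x)
  have hZ2 : ∀ x : Z, x * x = 1 := fun x => Subtype.ext ((hZ x).1 x.2)
  let _ : CommGroup Z := { (inferInstance : Group Z) with mul_comm := mul_comm_of_sq hZ2 }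
  let _ : Module (ZMod 2) (Additive Z) := AddCommGroup.zmodModule (fun x => by
    rw [two_nsmul]; exact hZ2 x)
  let c : P → Additive Z := fun x => if hx : x ∈ Z then Additive.ofMul ⟨x, hx⟩ else 0
  have cmul : ∀ x ∈ Z, ∀ y ∈ Z, c (x * y) = c x + c y := fun x hx y hy => by
    simp only [c, dif_pos hx, dif_pos hy, dif_pos (mul_mem hx hy)]
    rfl
  have cone : c 1 = 0 := by
    simp only [c, dif_pos (one_mem Z)]
    rfl
  have czero : ∀ x ∈ Z, c x = 0 → x = 1 := fun x hx e => by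
    simp only [c, dif_pos hx] at e
    exact congrArg Subtype.val (show (⟨x, hx⟩ : Z) = 1 from e)
  have hk : ∀ x y : P, kap x y ∈ Z := fun x y => by
    have : kap x y = (x * x)⁻¹ * (x * y * (x * y)) * (y * y)⁻¹ := by rw [mul_sq_eq]; group
    rw [this]
    exact mul_mem (mul_mem (inv_mem (h4 x)) (h4 _)) (inv_mem (h4 y))
  let q : Additive (P ⧸ Z) → Additive Z := fun v => Quotient.liftOn' (Additive.toMul v)
    (fun x => c (x * x)) (fun x y e => by
      have h1 := QuotientGroup.leftRel_apply.1 e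
      have : y = x * (x⁻¹ * y) := by group
      rw [this, mul_sq_eq, kap_eq_one_iff.2 (hc _ h1 x).symm, (hZ _).1 h1, mul_one, mul_one])
  have hq : ∀ x : P, q (Additive.ofMul (x : P ⧸ Z)) = c (x * x) := fun x => rfl
  have hz := zmod_two_cases
  have h0 : q 0 = 0 := by
    have := hq 1
    rw [mul_one, cone] at this
    exact this
  have hpol : ∀ x y : P, QuadraticMap.polar q (Additive.ofMul (x : P ⧸ Z))
      (Additive.ofMul (y : P ⧸ Z)) = c (kap x y) := fun x y => by
    show q (Additive.ofMul ((x * y : P) : P ⧸ Z)) - _ - _ = _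
    rw [hq, hq, hq, mul_sq_eq, cmul _ (mul_mem (h4 x) (hk x y)) _ (h4 y), cmul _ (h4 x) _ (hk x y)]
    abel
  let Q : QuadraticMap (ZMod 2) (Additive (P ⧸ Z)) (Additive Z) := QuadraticMap.ofPolar q
    (fun a x => by rcases hz a with rfl | rfl <;> simp [h0])
    (fun x x' y => by
      obtain ⟨x, rfl⟩ := QuotientGroup.mk_surjective (s := Z) x
      obtain ⟨x', rfl⟩ := QuotientGroup.mk_surjective (s := Z) x'
      obtain ⟨y, rfl⟩ := QuotientGroup.mk_surjective (s := Z) y
      refine (hpol (x * x') y).trans ?_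
      rw [kap_mul_left, hconj _ (hk x y), cmul _ (hk _ _) _ (hk _ _), ← hpol, ← hpol]
      rfl)
    (fun a x y => by rcases hz a with rfl | rfl <;> simp [h0, QuadraticMap.polar])
  have h1 := finrank_le_of_anisotropic Q (fun v hv => by
    obtain ⟨x, rfl⟩ := QuotientGroup.mk_surjective (s := Z) v
    exact (QuotientGroup.eq_one_iff x).2 ((hZ x).2 (czero _ (h4 x) hv)))
  have h2 := Module.natCard_eq_pow_finrank (K := ZMod 2) (V := Additive Z)
  have h3 := Module.natCard_eq_pow_finrank (K := ZMod 2) (V := Additive (P ⧸ Z))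
  rw [Nat.card_zmod] at h2 h3
  rw [Subgroup.card_eq_card_quotient_mul_card_subgroup Z, pow_succ]
  apply Nat.mul_le_mul_right
  refine le_trans (le_of_eq h3) ?_
  rw [show Nat.card Z = _ from h2, ← pow_mul, mul_comm]
  exact Nat.pow_le_pow_right (by norm_num) h1

variable {P : Type*} [Group P]

/-- The standing hypothesis of Higman's theorem (without non-commutativity). -/
structure HigM (ξ : MulAut P) (n m : ℕ) : Prop where
  pgroup : IsPGroup 2 P
  good : Good n m
  pow_eq_one : ξ ^ m = 1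
  fpf : ∀ (k : ℕ) (x : P), (ξ ^ k) x = x → x = 1 ∨ m ∣ k
  cardZ : Nat.card {x : P // x * x = 1} = 2 ^ n
  central : ∀ x : P, x * x = 1 → ∀ y, x * y = y * x

namespace HigM

variable {ξ : MulAut P} {n m : ℕ}

theorem two_le (h : HigM ξ n m) : 2 ≤ n := h.good.two_le

/-- The subgroup of elements of order at most two. -/
def Z (h : HigM ξ n m) : Subgroup P where
  carrier := {x | x * x = 1}
  mul_mem' := fun {x y} hx hy => by
    show x * y * (x * y) = 1
    rw [mul_sq_eq, kap_eq_one_iff.2 (h.central x hx y), hx, hy]; group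
  one_mem' := one_mul 1
  inv_mem' := fun {x} hx => by
    show x⁻¹ * x⁻¹ = 1
    rw [← mul_inv_rev, hx, inv_one]

theorem mem_Z (h : HigM ξ n m) {x : P} : x ∈ h.Z ↔ x * x = 1 := Iff.rfl

theorem card_Z (h : HigM ξ n m) : Nat.card h.Z = 2 ^ n := h.cardZ

theorem inv_Z (h : HigM ξ n m) : ∀ x ∈ h.Z, ξ x ∈ h.Z := fun x hx => by
  rw [mem_Z, ← map_mul, h.mem_Z.1 hx, map_one]

theorem Z_comm (h : HigM ξ n m) {z : P} (hz : z ∈ h.Z) (y : P) : z * y = y * z := h.central z hz y

theorem Z_conj (h : HigM ξ n m) {z : P} (hz : z ∈ h.Z) (y : P) : y * z * y⁻¹ = z := by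
  rw [← h.Z_comm hz]; group

theorem Z_conj' (h : HigM ξ n m) {z : P} (hz : z ∈ h.Z) (y : P) : y⁻¹ * z * y = z := by
  rw [← h.Z_comm hz]; group

theorem Z_normal (h : HigM ξ n m) : h.Z.Normal := ⟨fun z hz y => by rw [h.Z_conj hz]; exact hz⟩

theorem n_ne (h : HigM ξ n m) : n ≠ 0 := by have := h.two_le; omega

theorem one_lt (h : HigM ξ n m) : 1 < 2 ^ n := Nat.one_lt_two_pow h.n_ne

theorem card_eq [Finite P] (h : HigM ξ n m) {H : Subgroup P} (hH : ∀ x ∈ H, ξ x ∈ H) :
    ∃ j, Nat.card H = (2 ^ n) ^ j := by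
  classical
  have : Fact (Nat.Prime 2) := ⟨Nat.prime_two⟩
  obtain ⟨d, hm⟩ := IsPGroup.iff_card.1 (h.pgroup.to_subgroup H)
  let f : {x : H // x ≠ 1} → {x : H // x ≠ 1} := fun x => ⟨⟨ξ x, hH _ x.1.2⟩, fun e =>
    x.2 (Subtype.ext ((map_eq_one_iff ξ ξ.injective).1 (congrArg Subtype.val e)))⟩
  have hf : Function.Injective f := fun x y e =>
    Subtype.ext (Subtype.ext (ξ.injective (congrArg (fun z : {x : H // x ≠ 1} => (z.1 : P)) e)))
  let σ : Equiv.Perm {x : H // x ≠ 1} := Equiv.ofBijective f (Finite.injective_iff_bijective.1 hf)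
  have hσ : ∀ (k : ℕ) x, (((σ ^ k) x).1 : P) = (ξ ^ k) x.1 := fun k x => by
    induction k with
    | zero => rfl
    | succ k ih => rw [pow_succ', pow_succ', MulAut.mul_apply, ← ih]; rfl
  have hd := dvd_card_of_free σ (m := m) (by
    ext x
    rw [hσ, h.pow_eq_one]; rfl) (fun k x e => (h.fpf k x.1 (by rw [← hσ, e])).resolve_left
      (fun e => x.2 (Subtype.ext e)))
  have hc : Nat.card {x : H // x ≠ 1} = 2 ^ d - 1 := by
    have := Fintype.ofFinite H
    rw [← hm, Nat.card_eq_fintype_card, Nat.card_eq_fintype_card]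
    simp
  rw [hc] at hd
  obtain ⟨j, rfl⟩ := h.good.dvd_of_dvd hd
  exact ⟨j, by rw [hm, pow_mul]⟩

theorem mul_card_le [Finite P] (h : HigM ξ n m) {A C : Subgroup P} (hA : ∀ x ∈ A, ξ x ∈ A)
    (hC : ∀ x ∈ C, ξ x ∈ C) (hlt : A < C) : 2 ^ n * Nat.card A ≤ Nat.card C := by
  have h1 : Nat.card A < Nat.card C := by
    refine lt_of_le_of_ne (Subgroup.card_le_of_le hlt.le) (fun e => hlt.ne ?_)
    exact Subgroup.eq_of_le_of_card_ge hlt.le e.ge
  obtain ⟨i, hi⟩ := h.card_eq hA
  obtain ⟨j, hj⟩ := h.card_eq hC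
  rw [hi, hj] at h1 ⊢
  rw [← pow_succ']
  exact Nat.pow_le_pow_right (by positivity) ((Nat.pow_lt_pow_iff_right h.one_lt).1 h1)

theorem irr_of_card [Finite P] (h : HigM ξ n m) {A C : Subgroup P} (hA : ∀ x ∈ A, ξ x ∈ A)
    (hC : ∀ x ∈ C, ξ x ∈ C) (hc : Nat.card C ≤ 2 ^ n * Nat.card A) (H : Subgroup P)
    (hH : ∀ x ∈ H, ξ x ∈ H) (h1 : A ≤ H) (h2 : H ≤ C) : H = A ∨ H = C := by
  by_contra hcon
  push Not at hcon
  have a1 := h.mul_card_le hA hH (lt_of_le_of_ne h1 hcon.1.symm)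
  have a2 := h.mul_card_le hH hC (lt_of_le_of_ne h2 hcon.2)
  have a3 : 0 < Nat.card H := Nat.card_pos
  have := h.one_lt
  nlinarith

theorem Z_le [Finite P] (h : HigM ξ n m) {H : Subgroup P} (hH : ∀ x ∈ H, ξ x ∈ H) (hne : H ≠ ⊥) :
    h.Z ≤ H := by
  rcases h.irr_of_card (A := ⊥) (C := h.Z) (by simp) h.inv_Z (by simp [h.card_Z]) (H ⊓ h.Z)
    (fun x hx => ⟨hH x hx.1, h.inv_Z x hx.2⟩) bot_le inf_le_right with h1 | h1
  · exfalso
    obtain ⟨x, hx, hx1⟩ := (Subgroup.bot_or_exists_ne_one H).resolve_left hne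
    obtain ⟨k, hk⟩ := h.pgroup x
    have : Fact (Nat.Prime 2) := ⟨Nat.prime_two⟩
    obtain ⟨j, -, hj⟩ := (Nat.dvd_prime_pow Nat.prime_two).1 (orderOf_dvd_of_pow_eq_one hk)
    rcases j with _ | j
    · exact hx1 (orderOf_eq_one_iff.1 hj)
    · have h2 : x ^ 2 ^ j ∈ H ⊓ h.Z := ⟨pow_mem hx _, by
        show _ * _ = _
        rw [← pow_add, ← two_mul, ← pow_succ', ← hj, pow_orderOf_eq_one]⟩
      rw [h1, Subgroup.mem_bot, ← orderOf_dvd_iff_pow_eq_one, hj,
        Nat.pow_dvd_pow_iff_le_right (by norm_num)] at h2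
      omega
  · exact inf_eq_right.1 h1

theorem exists_coord [Finite P] (h : HigM ξ n m) {C A : Subgroup P}
    (hlt : A < C) (hA : ∀ x ∈ A, ξ x ∈ A) (hC : ∀ x ∈ C, ξ x ∈ C) (hsq : ∀ x ∈ C, x * x ∈ A)
    (hirr : ∀ H : Subgroup P, (∀ x ∈ H, ξ x ∈ H) → A ≤ H → H ≤ C → H = A ∨ H = C)
    (F : Type*) [Field F] [Fintype F] (hF : Fintype.card F = 2 ^ n) :
    ∃ (c : P → F) (μ : F), IsPrimitiveRoot μ m ∧ IsCoord ξ C A c μ :=
  exists_isCoordM h.good h.pow_eq_one h.fpf hlt hA hC hsq hirr F hF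

theorem Z_ne_bot [Finite P] (h : HigM ξ n m) : h.Z ≠ ⊥ := fun e => by
  have := h.card_Z
  rw [e, Subgroup.card_bot] at this
  exact h.one_lt.ne this

theorem exists_coord_Z [Finite P] (h : HigM ξ n m) (F : Type*) [Field F] [Fintype F]
    (hF : Fintype.card F = 2 ^ n) :
    ∃ (c : P → F) (l : F), IsPrimitiveRoot l m ∧ IsCoord ξ h.Z ⊥ c l :=
  h.exists_coord (bot_lt_iff_ne_bot.2 h.Z_ne_bot) (by simp) h.inv_Z (fun x hx => hx)
    (h.irr_of_card (by simp) h.inv_Z (by simp [h.card_Z])) F hF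

theorem exists_field (h : HigM ξ n m) :
    ∃ (F : Type) (_ : Field F) (_ : Fintype F) (_ : CharP F 2), Fintype.card F = 2 ^ n := by
  have : Fact (Nat.Prime 2) := ⟨Nat.prime_two⟩
  let _ : Fintype (GaloisField 2 n) := Fintype.ofFinite _
  refine ⟨GaloisField 2 n, inferInstance, inferInstance, inferInstance, ?_⟩
  rw [← Nat.card_eq_fintype_card, GaloisField.card 2 n h.n_ne]

/-- Restriction to a non-trivial invariant subgroup. -/
theorem restrict [Finite P] (h : HigM ξ n m) {M : Subgroup P} (hM : ∀ x ∈ M, ξ x ∈ M) (hne : M ≠ ⊥) :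
    ∃ ξ' : MulAut M, HigM ξ' n m := by
  let f : M →* M := (ξ.toMonoidHom.comp M.subtype).codRestrict M (fun x => hM x x.2)
  have hf : Function.Injective f := fun x y e => Subtype.ext (ξ.injective (congrArg Subtype.val e))
  let ξ' : MulAut M := MulEquiv.ofBijective f (Finite.injective_iff_bijective.1 hf)
  have hξ : ∀ (k : ℕ) (x : M), (((ξ' ^ k) x : M) : P) = (ξ ^ k) x := fun k x => by
    induction k with
    | zero => rfl
    | succ k ih => rw [pow_succ', pow_succ', MulAut.mul_apply, MulAut.mul_apply, ← ih]; rfl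
  refine ⟨ξ', h.pgroup.to_subgroup M, h.good, ?_, fun k x e => ?_, ?_, fun x hx y => ?_⟩
  · ext x
    rw [hξ, h.pow_eq_one]; rfl
  · exact (h.fpf k x (by rw [← hξ, e])).imp_left Subtype.ext
  · rw [← h.cardZ]
    exact Nat.card_congr ⟨fun x => ⟨x.1, congrArg Subtype.val x.2⟩,
      fun x => ⟨⟨x.1, h.Z_le hM hne x.2⟩, Subtype.ext x.2⟩, fun x => rfl, fun x => rfl⟩
  · exact Subtype.ext (h.central x (congrArg Subtype.val hx) y)

theorem kap_mem_Z (h : HigM ξ n m) {x y : P} (hx : x * x ∈ h.Z) (hy : y * y ∈ h.Z)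
    (hxy : x * y * (x * y) ∈ h.Z) : kap x y ∈ h.Z := by
  have : kap x y = (x * x)⁻¹ * (x * y * (x * y)) * (y * y)⁻¹ := by rw [mul_sq_eq]; group
  rw [this]
  exact mul_mem (mul_mem (inv_mem hx) hxy) (inv_mem hy)

/-- In exponent four the centre is elementary unless the group is abelian. -/
theorem center_elem [Finite P] (h : HigM ξ n m) (h4 : ∀ x : P, x * x ∈ h.Z)
    (hna : ∃ x y : P, x * y ≠ y * x) {z : P} (hz : ∀ y, z * y = y * z) : z * z = 1 := by
  by_contra hz1
  let W : Subgroup P :=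
    { carrier := {w | ∃ b : P, (∀ y, b * y = y * b) ∧ b * b = w}
      mul_mem' := by
        rintro _ _ ⟨a, ha, rfl⟩ ⟨b, hb, rfl⟩
        refine ⟨a * b, fun y => by rw [mul_assoc, hb, ← mul_assoc, ha, mul_assoc], ?_⟩
        rw [mul_sq_eq, kap_eq_one_iff.2 (ha b), mul_one]
      one_mem' := ⟨1, by simp, by simp⟩
      inv_mem' := by
        rintro _ ⟨a, ha, rfl⟩
        exact ⟨a⁻¹, fun y => (show Commute a y from ha y).inv_left.eq, by group⟩ }
  have hW : h.Z ≤ W := h.Z_le (by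
    rintro _ ⟨a, ha, rfl⟩
    refine ⟨ξ a, fun y => ?_, by rw [map_mul]⟩
    obtain ⟨y, rfl⟩ := ξ.surjective y
    rw [← map_mul, ha, map_mul]) (fun e => hz1 (by
      have : z * z ∈ W := ⟨z, hz, rfl⟩
      rwa [e, Subgroup.mem_bot] at this))
  obtain ⟨x, y, hxy⟩ := hna
  obtain ⟨b, hb, e⟩ := hW (h4 x)
  have h1 : (x * b⁻¹) * (x * b⁻¹) = 1 := by
    have : Commute b x := hb x
    rw [mul_sq_eq, kap_eq_one_iff.2 this.inv_left.symm.eq, ← e]; group
  apply hxy
  calc x * y = (x * b⁻¹) * (b * y) := by group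
    _ = (b * y) * (x * b⁻¹) := h.central _ h1 _
    _ = y * (b * x) * b⁻¹ := by rw [hb y]; group
    _ = y * x := by rw [hb x]; group

/-- In exponent four the order is at most the cube of the number of solutions of `x² = 1`. -/
theorem card_le [Finite P] (h : HigM ξ n m) (h4 : ∀ x : P, x * x ∈ h.Z) :
    Nat.card P ≤ (2 ^ n) ^ 3 := by
  rw [← h.card_Z]
  exact card_le_cube h.Z (fun _ => Iff.rfl) (fun z hz y => h.Z_comm hz y) h4

end HigM

end Cfsg.Agent.SZ2
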