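import Cfsg.Agent.H41.HigmanT4

/-! Arithmetic conditions on an automorphism order `m ∣ 2 ^ n - 1` under which the eigenvalue
arguments of Higman's theorem on Suzuki 2-groups still work. -/

set_option autoImplicit false

namespace Cfsg.Agent.SZ2

open H41 Finset

/-- The arithmetic hypotheses on the order `m` of the automorphism. -/
structure Good (n m : ℕ) : Prop where
  two_le : 2 ≤ n
  dvd : m ∣ 2 ^ n - 1
  p1 : ∀ i j k : ZMod n, 2 ^ i.val + 2 ^ j.val ≡ 2 ^ k.val [MOD m] → i = j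
  p2 : ∀ k k' : ZMod n, 2 ^ (k + 1).val + 2 ^ (k' + 1).val ≡
    2 ^ (0 + 1 : ZMod n).val + 2 ^ (0 : ZMod n).val [MOD m] →
    (2 ^ k.val - 1).Coprime m → (2 ^ k'.val - 1).Coprime m → False
  p3 : ∀ i j : ZMod n, i ≠ j → ∃ a₀ b₀ : ZMod n, ∀ a b : ZMod n,
    2 ^ (a + i).val + 2 ^ (a + j).val + 2 ^ b.val ≡ 2 ^ i.val + 2 ^ j.val [MOD m] →
      a = a₀ ∧ b = b₀

theorem two_pow_mod (n a : ℕ) : 2 ^ (a % n) ≡ 2 ^ a [MOD 2 ^ n - 1] := by
  have h1 : 2 ^ n ≡ 1 [MOD 2 ^ n - 1] :=
    ((Nat.modEq_iff_dvd' Nat.one_le_two_pow).2 dvd_rfl).symm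
  conv_rhs => rw [← Nat.mod_add_div a n, pow_add, pow_mul]
  have := (h1.pow (a / n)).mul_left (2 ^ (a % n))
  rw [one_pow, mul_one] at this
  exact this.symm

theorem two_pow_val_add {n : ℕ} [NeZero n] (x s : ZMod n) :
    2 ^ (x + s).val ≡ 2 ^ s.val * 2 ^ x.val [MOD 2 ^ n - 1] := by
  rw [ZMod.val_add, ← pow_add, add_comm s.val]
  exact two_pow_mod n _

theorem exists_shift {n D : ℕ} [NeZero n] (hD : 5 * (D - 1) < n) (S : Finset (ZMod n))
    (hS : S.card ≤ 5) : ∃ s : ZMod n, ∀ x ∈ S, (x + s).val + D ≤ n := by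
  classical
  let B : Finset (ZMod n) :=
    S.biUnion (fun x => (Finset.Ico 1 D).image (fun t : ℕ => -x - (t : ZMod n)))
  have hB : B.card < Fintype.card (ZMod n) := by
    rw [ZMod.card]
    refine lt_of_le_of_lt (card_biUnion_le_card_mul _ _ (D - 1) (fun x _ => ?_)) ?_
    · exact card_image_le.trans (by simp)
    · exact lt_of_le_of_lt (Nat.mul_le_mul_right _ hS) hD
  obtain ⟨s, -, hs⟩ := Finset.exists_mem_notMem_of_card_lt_card (s := B) (t := univ)
    (by simpa using hB)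
  refine ⟨s, fun x hx => ?_⟩
  by_contra hcon
  apply hs
  have h1 := ZMod.val_lt (x + s)
  refine mem_biUnion.2 ⟨x, hx, mem_image.2 ⟨n - (x + s).val, mem_Ico.2 ⟨by omega, by omega⟩, ?_⟩⟩
  rw [Nat.cast_sub h1.le, ZMod.natCast_self, ZMod.natCast_zmod_val]
  ring

theorem lift {n m k D : ℕ} [NeZero n] (hmk : m * k = 2 ^ n - 1) (hD : 5 * (D - 1) < n)
    (hDn : D < n) (hk : 3 * k < 2 ^ D) (L R : List (ZMod n)) (hL : L.length ≤ 3)
    (hR : R.length ≤ 3) (hLR : L.length + R.length ≤ 5)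
    (h : (L.map fun x => 2 ^ x.val).sum ≡ (R.map fun x => 2 ^ x.val).sum [MOD m]) :
    (L.map fun x => 2 ^ x.val).sum ≡ (R.map fun x => 2 ^ x.val).sum [MOD 2 ^ n - 1] := by
  classical
  obtain ⟨s, hs⟩ := exists_shift hD (L ++ R).toFinset
    ((List.toFinset_card_le _).trans (by simpa using hLR))
  have hm : 3 * 2 ^ (n - D) < m := by
    have e1 : 2 ^ n = 2 ^ D * 2 ^ (n - D) := by rw [← pow_add]; congr 1; omega
    have e2 : 2 ^ 1 ≤ 2 ^ (n - D) := Nat.pow_le_pow_right (by norm_num) (by omega)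
    by_contra hcon
    have h1 : m * k ≤ 3 * 2 ^ (n - D) * k := Nat.mul_le_mul_right _ (by omega)
    have h2 : (3 * k + 1) * 2 ^ (n - D) ≤ 2 ^ D * 2 ^ (n - D) := Nat.mul_le_mul_right _ hk
    rw [hmk] at h1
    rw [← e1] at h2
    have : 1 ≤ 2 ^ n := Nat.one_le_two_pow
    nlinarith [Nat.sub_add_cancel this]
  have key : ∀ T : List (ZMod n), (T.map fun x => 2 ^ (x + s).val).sum ≡
      2 ^ s.val * (T.map fun x => 2 ^ x.val).sum [MOD 2 ^ n - 1] := fun T => by
    induction T with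
    | nil => rfl
    | cons x T ih =>
      simp only [List.map_cons, List.sum_cons, mul_add]
      exact (two_pow_val_add x s).add ih
  have bd : ∀ T : List (ZMod n), T.length ≤ 3 → (∀ x ∈ T, x ∈ L ++ R) →
      (T.map fun x => 2 ^ (x + s).val).sum < m := fun T h1 h2 => by
    have := List.sum_le_card_nsmul (T.map fun x => 2 ^ (x + s).val) (2 ^ (n - D)) (fun y hy => by
      obtain ⟨x, hx, rfl⟩ := List.mem_map.1 hy
      have := hs x (List.mem_toFinset.2 (h2 x hx))
      exact Nat.pow_le_pow_right (by norm_num) (by omega))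
    rw [List.length_map, smul_eq_mul] at this
    exact lt_of_le_of_lt (this.trans (Nat.mul_le_mul_right _ h1)) hm
  have hmd : m ∣ 2 ^ n - 1 := ⟨k, hmk.symm⟩
  have e : (L.map fun x => 2 ^ (x + s).val).sum = (R.map fun x => 2 ^ (x + s).val).sum :=
    Nat.ModEq.eq_of_lt_of_lt
      (((key L).of_dvd hmd).trans ((h.mul_left _).trans ((key R).of_dvd hmd).symm))
      (bd L hL (fun x hx => List.mem_append_left _ hx))
      (bd R hR (fun x hx => List.mem_append_right _ hx))
  have h2 := (key L).symm.trans (e ▸ key R)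
  refine Nat.ModEq.cancel_left_of_coprime ?_ h2
  apply Nat.Coprime.pow_right
  rw [Nat.coprime_two_right]
  exact Nat.Even.sub_odd Nat.one_le_two_pow (Nat.even_pow.2 ⟨even_two, NeZero.ne n⟩) odd_one

theorem prim_pow_iff {F : Type*} [Field F] {μ : F} {m : ℕ} (hμ : IsPrimitiveRoot μ m)
    (hm : 0 < m) {a b : ℕ} : μ ^ a = μ ^ b ↔ a ≡ b [MOD m] := by
  have := (hμ.isOfFinOrder hm.ne').pow_eq_pow_iff_modEq (n := a) (m := b)
  rwa [← hμ.eq_orderOf] at this

theorem good_of_lift {n m : ℕ} (hn : 2 ≤ n) (hm : m ∣ 2 ^ n - 1)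
    (hl : ∀ L R : List (ZMod n), L.length ≤ 3 → R.length ≤ 3 → L.length + R.length ≤ 5 →
      (L.map fun x => 2 ^ x.val).sum ≡ (R.map fun x => 2 ^ x.val).sum [MOD m] →
      (L.map fun x => 2 ^ x.val).sum ≡ (R.map fun x => 2 ^ x.val).sum [MOD 2 ^ n - 1]) :
    Good n m := by
  have : NeZero n := ⟨by omega⟩
  have : Fact (Nat.Prime 2) := ⟨Nat.prime_two⟩
  let _ : Fintype (GaloisField 2 n) := Fintype.ofFinite _
  have hF : Fintype.card (GaloisField 2 n) = 2 ^ n := by
    rw [← Nat.card_eq_fintype_card, GaloisField.card 2 n (NeZero.ne n)]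
  obtain ⟨μ, hμ⟩ := exists_prim hF
  have hpos : 0 < 2 ^ n - 1 := by
    have := Nat.one_lt_two_pow (NeZero.ne n)
    omega
  have h10 := zmod_one_ne_zero hn
  have p1 : ∀ i j k : ZMod n, 2 ^ i.val + 2 ^ j.val ≡ 2 ^ k.val [MOD m] → i = j := by
    intro i j k h
    have h1 := hl [i, j] [k] (by simp) (by simp) (by simp) (by simpa using h)
    simp only [List.map_cons, List.map_nil, List.sum_cons, List.sum_nil, add_zero] at h1
    have e : fr i μ * fr j μ = fr k μ := by
      simp only [fr, ← pow_add]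
      exact (prim_pow_iff hμ hpos).2 h1
    rw [show k = k - 1 + 1 by ring, fr_succ hF] at e
    rcases fr_pair hF hμ e with h | h <;> exact h.1.trans h.2.symm
  have hm1 : m ≠ 1 := fun e => h10 (p1 1 0 0 (by rw [e]; exact Nat.modEq_one))
  refine ⟨hn, hm, p1, fun k k' h h1 h2 => ?_, fun i j hij => ?_⟩
  · have h3 := hl [k + 1, k' + 1] [0 + 1, 0] (by simp) (by simp) (by simp) (by simpa using h)
    simp only [List.map_cons, List.map_nil, List.sum_cons, List.sum_nil, add_zero] at h3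
    have e : fr (k + 1) μ * fr (k' + 1) μ = fr (0 + 1 : ZMod n) μ * fr (0 : ZMod n) μ := by
      simp only [fr, ← pow_add]
      exact (prim_pow_iff hμ hpos).2 h3
    rcases fr_pair hF hμ e with h | h
    · rw [add_right_cancel h.1] at h1
      exact hm1 (by simpa using h1)
    · rw [add_right_cancel h.2] at h2
      exact hm1 (by simpa using h2)
  · have key : ∀ a b : ZMod n, 2 ^ (a + i).val + 2 ^ (a + j).val + 2 ^ b.val ≡
        2 ^ i.val + 2 ^ j.val [MOD m] → (a = i - j ∧ b = a + i ∧ 2 * (j - i) = 1) ∨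
        (a = j - i ∧ b = a + j ∧ 2 * (j - i) = -1) := by
      intro a b h
      have h3 := hl [a + i, a + j, b] [i, j] (by simp) (by simp) (by simp)
        (by simpa [add_assoc] using h)
      simp only [List.map_cons, List.map_nil, List.sum_cons, List.sum_nil, add_zero] at h3
      have h1 : fr (a + i) μ * fr (a + j) μ * fr b μ = fr i μ * fr j μ := by
        simp only [fr, ← pow_add, add_assoc]
        exact (prim_pow_iff hμ hpos).2 h3
      rcases fr_triple hF hμ h1 with h2 | h2 | h2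
      · exact absurd (add_left_cancel h2) hij
      · rw [← h2, mul_right_comm, ← fr_succ hF] at h1
        rcases fr_pair hF hμ h1 with h3 | h3
        · exact absurd (by linear_combination h3.1 - h3.2) h10
        · exact Or.inl ⟨by linear_combination h3.2, h2.symm, by linear_combination h3.2 - h3.1⟩
      · rw [← h2, mul_assoc, ← fr_succ hF] at h1
        rcases fr_pair hF hμ h1 with h3 | h3
        · exact absurd (by linear_combination h3.2 - h3.1) h10
        · exact Or.inr ⟨by linear_combination h3.1, h2.symm, by linear_combination h3.2 - h3.1⟩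
    by_cases h : 2 * (j - i) = 1
    · refine ⟨i - j, i - j + i, fun a b hc => ?_⟩
      rcases key a b hc with h1 | h1
      · exact ⟨h1.1, by rw [h1.2.1, h1.1]⟩
      · exact absurd (by linear_combination (j - i) * (h1.2.2 - h) - h) h10
    · refine ⟨j - i, j - i + j, fun a b hc => ?_⟩
      rcases key a b hc with h1 | h1
      · exact absurd h1.2.2 h
      · exact ⟨h1.1, by rw [h1.2.1, h1.1]⟩

theorem good_of_check {n m : ℕ} (hn : 2 ≤ n) (hm : m ∣ 2 ^ n - 1)
    (c1 : ∀ i < n, ∀ j < n, ∀ k < n, (2 ^ i + 2 ^ j) % m = 2 ^ k % m → i = j)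
    (c2 : ∀ i < n, ∀ j < n, (2 ^ ((i + 1) % n) + 2 ^ ((j + 1) % n)) % m = 3 % m →
      Nat.gcd (2 ^ i - 1) m = 1 → Nat.gcd (2 ^ j - 1) m ≠ 1)
    (c3 : ∀ i < n, ∀ j < n, i = j ∨ ∃ a₀ < n, ∃ b₀ < n, ∀ a < n, ∀ b < n,
      (2 ^ ((a + i) % n) + 2 ^ ((a + j) % n) + 2 ^ b) % m = (2 ^ i + 2 ^ j) % m →
        a = a₀ ∧ b = b₀) : Good n m := by
  have : NeZero n := ⟨by omega⟩
  have : Fact (1 < n) := ⟨hn⟩
  refine ⟨hn, hm, fun i j k h => ZMod.val_injective n
    (c1 _ (ZMod.val_lt i) _ (ZMod.val_lt j) _ (ZMod.val_lt k) h), fun k k' h h1 h2 => ?_,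
    fun i j hij => ?_⟩
  · rw [zero_add, ZMod.val_add, ZMod.val_add, ZMod.val_one, ZMod.val_zero] at h
    exact c2 _ (ZMod.val_lt k) _ (ZMod.val_lt k') h h1 h2
  · obtain ⟨a₀, ha, b₀, hb, h⟩ := (c3 _ (ZMod.val_lt i) _ (ZMod.val_lt j)).resolve_left
      (fun e => hij (ZMod.val_injective n e))
    refine ⟨a₀, b₀, fun a b e => ?_⟩
    rw [ZMod.val_add, ZMod.val_add] at e
    obtain ⟨h1, h2⟩ := h _ (ZMod.val_lt a) _ (ZMod.val_lt b) e
    rw [← h1, ← h2, ZMod.natCast_zmod_val, ZMod.natCast_zmod_val]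
    exact ⟨rfl, rfl⟩

/-- Boolean form of the first finite check. -/
def chk1 (n m : ℕ) : Bool :=
  (List.range n).all fun i => (List.range n).all fun j => Nat.beq i j ||
    (List.range n).all fun k => !Nat.beq (Nat.mod (Nat.add (Nat.pow 2 i) (Nat.pow 2 j)) m)
      (Nat.mod (Nat.pow 2 k) m)

/-- Boolean form of the second finite check. -/
def chk2 (n m : ℕ) : Bool :=
  (List.range n).all fun i => (List.range n).all fun j =>
    !Nat.beq ((2 ^ ((i + 1) % n) + 2 ^ ((j + 1) % n)) % m) (3 % m) ||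
      !Nat.beq (Nat.gcd (2 ^ i - 1) m) 1 || !Nat.beq (Nat.gcd (2 ^ j - 1) m) 1

/-- Boolean form of the third finite check. -/
def chk3 (n m : ℕ) : Bool :=
  (List.range n).all fun i => (List.range n).all fun j => Nat.beq i j ||
    (List.range n).any fun a₀ => (List.range n).any fun b₀ =>
      (List.range n).all fun a => (List.range n).all fun b =>
        !Nat.beq (Nat.mod (Nat.add (Nat.add (Nat.pow 2 (Nat.mod (Nat.add a i) n))
            (Nat.pow 2 (Nat.mod (Nat.add a j) n))) (Nat.pow 2 b)) m)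
          (Nat.mod (Nat.add (Nat.pow 2 i) (Nat.pow 2 j)) m) ||
          (Nat.beq a a₀ && Nat.beq b b₀)

theorem good_of_chk {n m : ℕ} (hn : 2 ≤ n) (hm : m ∣ 2 ^ n - 1) (c1 : chk1 n m = true)
    (c2 : chk2 n m = true) (c3 : chk3 n m = true) : Good n m := by
  simp only [chk1, chk2, chk3, List.all_eq_true, List.any_eq_true, List.mem_range, Bool.or_eq_true,
    Bool.not_eq_true', Nat.beq_eq, Bool.and_eq_true, ← Bool.not_eq_true] at c1 c2 c3
  refine good_of_check hn hm (fun i hi j hj k hk e => ?_) (fun i hi j hj e h1 h2 => ?_)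
    (fun i hi j hj => ?_)
  · exact (c1 i hi j hj).resolve_right (fun h => h k hk e)
  · rcases c2 i hi j hj with (h | h) | h
    · exact h e
    · exact h h1
    · exact h h2
  · refine (c3 i hi j hj).imp_right ?_
    rintro ⟨a₀, ha, b₀, hb, h⟩
    exact ⟨a₀, ha, b₀, hb, fun a h1 b h2 e => (h a h1 b h2).resolve_left (fun h => h e)⟩

theorem good_six : Good 6 21 :=
  good_of_chk (by norm_num) (by norm_num) (by decide +kernel) (by decide +kernel)
    (by decide +kernel)

theorem good_twelve : Good 12 1365 :=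
  good_of_chk (by norm_num) (by norm_num) (by decide +kernel) (by decide +kernel)
    (by decide +kernel)

theorem good_eighteen : Good 18 29127 :=
  good_of_chk (by norm_num) (by norm_num) (by decide +kernel) (by decide +kernel)
    (by decide +kernel)

theorem three_mul_lt (n : ℕ) (hn : 31 ≤ n) : 3 * n < 2 ^ ((n + 4) / 5) := by
  have key : ∀ d : ℕ, 7 ≤ d → 15 * d < 2 ^ d := fun d hd => by
    induction d, hd using Nat.le_induction with
    | base => norm_num
    | succ d hd ih => rw [pow_succ]; omega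
  have := key ((n + 4) / 5) (by omega)
  omega

set_option synthInstance.maxSize 1024 in
theorem good_of_dvd {n m k : ℕ} (hn : 2 ≤ n) (hmk : m * k = 2 ^ n - 1) (hk : k ∣ n) :
    Good n m := by
  have : NeZero n := ⟨by omega⟩
  have hm : m ∣ 2 ^ n - 1 := ⟨k, hmk.symm⟩
  by_cases h1 : k = 1
  · subst h1
    rw [mul_one] at hmk
    exact good_of_lift hn hm (fun L R _ _ _ h => hmk ▸ h)
  by_cases h2 : 3 * k < 2 ^ ((n + 4) / 5)
  · exact good_of_lift hn hm (lift hmk (by omega) (by omega) h2)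
  have hkn : k ≤ n := Nat.le_of_dvd (by omega) hk
  have h3 : n < 31 := by
    by_contra hcon
    have := three_mul_lt n (by omega)
    omega
  have hk2 : k ∣ 2 ^ n - 1 := ⟨m, by rw [← hmk, mul_comm]⟩
  have key : ∀ n < 31, ∀ k ≤ n, 2 ≤ n → k ∣ n → k ∣ 2 ^ n - 1 →
      k = 1 ∨ 3 * k < 2 ^ ((n + 4) / 5) ∨ (n, k) ∈ [(6, 3), (12, 3), (18, 9)] := by
    decide +kernel
  have := ((key n h3 k hkn hn hk hk2).resolve_left h1).resolve_left h2
  simp only [List.mem_cons, Prod.mk.injEq, List.not_mem_nil, or_false] at this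
  rcases this with ⟨rfl, rfl⟩ | ⟨rfl, rfl⟩ | ⟨rfl, rfl⟩
  · obtain rfl : m = 21 := by omega
    exact good_six
  · obtain rfl : m = 1365 := by omega
    exact good_twelve
  · obtain rfl : m = 29127 := by omega
    exact good_eighteen

end Cfsg.Agent.SZ2
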