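import Cfsg.Agent.SZ2.Ab

/-! Higman's theorem for `HigM`: exponent four (adapted from `H41.HigmanMain`, `H41.HigmanT4`). -/

set_option autoImplicit false

namespace Cfsg.Agent.SZ2

open H41

universe u

section

variable {P : Type*} [Group P] [Finite P] {ξ : MulAut P} {n m : ℕ}

theorem AbM.sq_mem_Z {e : ℕ} {A : Subgroup P} (h : AbM ξ n m A e) (hA : A ≠ ⊤)
    (hmax : ∀ H : Subgroup P, (∀ x ∈ H, ξ x ∈ H) → A ≤ H → H = A ∨ H = ⊤)
    (hna : ∃ x y : P, x * y ≠ y * x) (x : P) : x * x ∈ h.hig.Z := by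
  have : NeZero n := ⟨h.hig.n_ne⟩
  obtain ⟨F, _, _, _, hF⟩ := h.hig.exists_field
  obtain ⟨c₀, l, hl, hc⟩ := h.hig.exists_coord_Z F hF
  obtain ⟨c₁, μ, hμ, hc₁⟩ := h.hig.exists_coord (lt_top_iff_ne_top.2 hA) h.inv (fun _ _ => trivial)
    (fun x _ => h.sq x) (fun H h1 h2 _ => hmax H h1 h2) F hF
  obtain ⟨η, hη, hηe, hη'⟩ := h.exists_eta hc hc₁
  have hcA := h.coordA hc
  have hz : ∀ a ∈ A, ∀ u, dis u a ^ 2 ^ e ∈ h.hig.Z := fun a ha u =>
    AbM.pow_mem_Z h.hig (h.dis_pow ha u)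
  have hη0 : (∀ s t, η s t = 0) → ∀ u, ∀ a ∈ A, dis u a ^ 2 ^ e = 1 := fun h0 u a ha =>
    (hc.zero_iff _ (hz a ha u)).1 (by rw [← hη' a ha u trivial, h0])
  by_cases hS : ∀ u : P, (u * u) ^ 2 ^ (e + 1) = 1
  · rcases e with _ | e
    · have := hS x
      rwa [zero_add, pow_one, pow_two] at this
    · exfalso
      have h0 := h.hig.good.idem_eq_zero hF hη hμ hl hηe (fun s t => by
        obtain ⟨a, ha, rfl⟩ := hcA.surj s
        obtain ⟨u, -, rfl⟩ := hc₁.surj t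
        obtain ⟨b, hb, e1⟩ := h.sqrt (h.dis_mem u ha) (h.dis_pow ha u)
        rw [hη' a ha u trivial, ← e1, sq_pow, hη' b hb u trivial]
        have h1 := dis_mul_left u u a
        rw [h.dis_eq_one (h.sq u) ha, ← e1, h.dis_mul u hb hb, mul_assoc] at h1
        have h2 := congrArg (fun z => z ^ 2 ^ e) h1
        simp only [one_pow] at h2
        rw [(h.comm _ (h.sq _) _ (h.sq _)).mul_pow, sq_pow, sq_pow, sq_pow] at h2
        have h3 := congrArg c₀ h2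
        rw [hc.one, hc.mul _ (hz b hb u) _ (AbM.pow_mem_Z h.hig (h.exp b hb))] at h3
        exact CharTwo.add_eq_zero.1 h3.symm)
      apply hA
      rw [eq_top_iff]
      exact fun u _ => h.lemma_two (hη0 h0) (e + 1 + 1) le_rfl (hS u)
  · exfalso
    push Not at hS
    obtain ⟨u₀, hu₀⟩ := hS
    have hs₀ : c₀ ((u₀ * u₀) ^ 2 ^ (e + 1)) ≠ 0 := fun e1 =>
      hu₀ ((hcA.zero_iff _ (h.sq u₀)).1 e1).2
    have hx₀ : c₁ u₀ ≠ 0 := fun e1 =>
      hu₀ (by rw [sq_pow, h.exp _ ((hc₁.zero_iff _ trivial).1 e1)])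
    obtain ⟨B, hB, hBe, hBa, hB'⟩ := h.exists_B hc hc₁ hu₀ le_rfl
      (fun u v => h.exp _ (h.kap_mem u v))
    have hk : ∀ u v : P, kap u v ^ 2 ^ (e + 1) = 1 := by
      by_contra hcon
      push Not at hcon
      obtain ⟨u, v, huv⟩ := hcon
      obtain ⟨i, j, hij, e1⟩ := hB.alt_eigen hF hBe hBa ⟨c₁ u, c₁ v, fun e1 => huv
        ((hc.zero_iff _ (AbM.pow_mem_Z h.hig (h.exp _ (h.kap_mem u v)))).1 (by rw [← hB', e1]))⟩
      have h0 := hη0 (h.hig.good.cubic_eq_zero hF hη hμ hij e1 hηe hs₀ hx₀ (by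
        rw [hη' _ (h.sq u₀) u₀ trivial, show dis u₀ (u₀ * u₀) = 1 by unfold dis; group, one_pow,
          hc.one]))
      have h1 := h0 v _ (h.sq u)
      rw [h.dis_sq, (h.comm _ (h.dis_mem _ (h.kap_mem _ _)) _ (h.sq _)).mul_pow,
        h0 _ _ (h.kap_mem _ _), one_mul, sq_pow] at h1
      exact huv h1
    have hadd : ∀ u v : P, c₀ ((u * v * (u * v)) ^ 2 ^ (e + 1)) =
        c₀ ((u * u) ^ 2 ^ (e + 1)) + c₀ ((v * v) ^ 2 ^ (e + 1)) := fun u v => by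
      rw [mul_sq_eq]
      have e1 := hcA.mul _ (mul_mem (h.sq u) (h.kap_mem u v)) _ (h.sq v)
      have e2 := hcA.mul _ (h.sq u) _ (h.kap_mem u v)
      rw [e1, e2, hk, hc.one, add_zero]
    obtain ⟨Q, hQ⟩ := hc₁.descend (fun u => c₀ ((u * u) ^ 2 ^ (e + 1))) (fun u _ a ha => by
      rw [hadd, sq_pow a, h.exp a ha, hc.one, add_zero])
    obtain ⟨k, hk'⟩ := add_eigen hF (f := Q) (μ := μ) (l := l) (fun s t => by
      obtain ⟨u, -, rfl⟩ := hc₁.surj s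
      obtain ⟨v, -, rfl⟩ := hc₁.surj t
      rw [← hc₁.mul u trivial v trivial, hQ _ trivial, hQ _ trivial, hQ _ trivial, hadd]) (fun s => by
      obtain ⟨u, -, rfl⟩ := hc₁.surj s
      rw [← hc₁.equiv u trivial, hQ _ trivial, hQ _ trivial, ← map_mul]
      exact hcA.equiv _ (h.sq u)) ⟨c₁ u₀, by rw [hQ _ trivial]; exact hs₀⟩
    have key : ∀ i j : ℕ, j + i = e + 1 → ∀ u v : P, kap u v ^ 2 ^ j = 1 := by
      intro i
      induction i with
      | zero => intro j hj; rw [add_zero] at hj; rw [hj]; exact hk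
      | succ i ih =>
        intro j hj u v
        have h1 := ih (j + 1) (by omega)
        obtain ⟨B, hB, hBe, hBa, hB'⟩ := h.exists_B hc hc₁ hu₀ (by omega) h1
        rw [← hk'] at hBe
        exact (hc.zero_iff _ (AbM.pow_mem_Z h.hig (h1 u v))).1
          (by rw [← hB', h.hig.good.alt_eq_zero hF hB hμ k hBe hBa])
    obtain ⟨u, v, huv⟩ := hna
    exact huv (kap_eq_one_iff.1 (by simpa using key (e + 1) 0 (by omega) u v))

namespace HigM

theorem sq_mem_of_max (h : HigM ξ n m) {M : Subgroup P} (hM : ∀ x ∈ M, ξ x ∈ M) (hne : M ≠ ⊤)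
    (hmax : ∀ H : Subgroup P, (∀ x ∈ H, ξ x ∈ H) → M ≤ H → H = M ∨ H = ⊤) (x : P) :
    x * x ∈ M := by
  have : Fact (Nat.Prime 2) := ⟨Nat.prime_two⟩
  have := h.pgroup.isNilpotent
  have hiff : ∀ x, ξ x ∈ M → x ∈ M := fun x hx => by
    have := pow_apply_mem hM (m - 1) hx
    rwa [← MulAut.mul_apply, ← pow_succ, Nat.sub_add_cancel h.good.pos, h.pow_eq_one] at this
  have hn : M.Normal := by
    rw [← Subgroup.normalizer_eq_top_iff]
    refine (hmax _ (fun g hg => ?_) Subgroup.le_normalizer).resolve_left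
      (Group.normalizerCondition_of_isNilpotent M (lt_top_iff_ne_top.2 hne)).ne'
    rw [Subgroup.mem_normalizer_iff] at hg ⊢
    intro y
    obtain ⟨y, rfl⟩ := ξ.surjective y
    rw [← map_inv, ← map_mul, ← map_mul]
    exact ⟨fun hy => hM _ ((hg y).1 (hiff y hy)), fun hy => hM _ ((hg y).2 (hiff _ hy))⟩
  obtain ⟨b, -, hb1, hb2, hb3⟩ := H3.exists_mem_central_mod h.pgroup M ⊤
    (fun hle => hne (top_le_iff.1 hle))
  let H : Subgroup P :=
    { carrier := {x | x * x ∈ M ∧ ∀ g, dis g x ∈ M}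
      mul_mem' := fun {a b} ha hb => ⟨by
        rw [mul_sq_eq, AbM.kap_right]
        exact mul_mem (mul_mem ha.1 (hb.2 _)) hb.1, fun g => by
        have : dis g (a * b) = dis g a * (a * dis g b * a⁻¹) := by unfold dis; group
        rw [this]
        exact mul_mem (ha.2 g) (hn.conj_mem _ (hb.2 g) a)⟩
      one_mem' := ⟨by simp, fun g => by simp [dis]⟩
      inv_mem' := fun {a} ha => ⟨by rw [← mul_inv_rev]; exact inv_mem ha.1, fun g => by
        have : dis g a⁻¹ = a⁻¹ * (dis g a)⁻¹ * a⁻¹⁻¹ := by unfold dis; group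
        rw [this]
        exact hn.conj_mem _ (inv_mem (ha.2 g)) _⟩ }
  have hH : H = ⊤ := (hmax H (fun x hx => ⟨by rw [← map_mul]; exact hM _ hx.1, fun g => by
    obtain ⟨g, rfl⟩ := ξ.surjective g
    rw [← map_dis]; exact hM _ (hx.2 g)⟩) (fun x hx => ⟨mul_mem hx hx, fun g =>
      mul_mem (hn.conj_mem x hx g) (inv_mem hx)⟩)).resolve_left (fun e => hb1 (by
        rw [← e]
        refine ⟨by rwa [← pow_two], fun g => ?_⟩
        have := inv_mem (hb3 g)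
        rwa [commutatorElement_inv] at this))
  exact (show x ∈ H by rw [hH]; trivial).1

theorem sq_mem_Z_of_abelian_max (h : HigM ξ n m) {A : Subgroup P} (hA : ∀ x ∈ A, ξ x ∈ A)
    (hne : A ≠ ⊤) (hmax : ∀ H : Subgroup P, (∀ x ∈ H, ξ x ∈ H) → A ≤ H → H = A ∨ H = ⊤)
    (hab : ∀ a ∈ A, ∀ b ∈ A, Commute a b) (hna : ∃ x y : P, x * y ≠ y * x) (x : P) :
    x * x ∈ h.Z := by
  classical
  have : Fact (Nat.Prime 2) := ⟨Nat.prime_two⟩
  have hsq := h.sq_mem_of_max hA hne hmax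
  have hex : ∃ k, ∀ a ∈ A, a ^ 2 ^ k = 1 := by
    obtain ⟨d, hm⟩ := IsPGroup.iff_card.1 h.pgroup
    exact ⟨d, fun a _ => by rw [← hm, pow_card_eq_one']⟩
  by_cases h1 : ∀ a ∈ A, a ^ 2 ^ 1 = 1
  · have := h1 _ (hsq x)
    rwa [pow_one, pow_two] at this
  have h2 : 2 ≤ Nat.find hex := by
    rw [Nat.le_find_iff]
    intro d hm h3
    apply h1
    intro a ha
    obtain ⟨i, hi⟩ := Nat.exists_eq_add_of_le (show d ≤ 1 by omega)
    rw [hi, pow_add, pow_mul, h3 a ha, one_pow]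
  obtain ⟨e, he⟩ := Nat.exists_eq_add_of_le' h2
  have hs : AbM ξ n m A e := ⟨h, hA, hab, hsq, he ▸ Nat.find_spec hex, by
    have := Nat.find_min hex (show e + 1 < Nat.find hex by omega)
    push Not at this
    exact this⟩
  exact hs.sq_mem_Z hne hmax hna x

theorem exists_max (h : HigM ξ n m) : ∃ M : Subgroup P, (∀ x ∈ M, ξ x ∈ M) ∧ M ≠ ⊤ ∧
    ∀ H : Subgroup P, (∀ x ∈ H, ξ x ∈ H) → M ≤ H → H = M ∨ H = ⊤ := by
  obtain ⟨M, hM, hmax⟩ := (Set.toFinite {M : Subgroup P | (∀ x ∈ M, ξ x ∈ M) ∧ M ≠ ⊤}).exists_maximal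
    ⟨⊥, by simp, fun e => h.Z_ne_bot (by rw [eq_bot_iff, e]; exact le_top)⟩
  refine ⟨M, hM.1, hM.2, fun H hH hle => ?_⟩
  by_cases ht : H = ⊤
  · exact Or.inr ht
  · exact Or.inl (le_antisymm (hmax ⟨hH, ht⟩ hle) hle)

omit [Finite P] in
theorem dis_mul_dis (h : HigM ξ n m) {x x' f f' : P} (hk : kap x x' ∈ h.Z) (hff : Commute f f')
    (h1 : dis x⁻¹ f' ∈ h.Z) (h2 : dis x' f ∈ h.Z) (e : kap (x * f) (x' * f') = kap x x') :
    dis x⁻¹ f' * dis x' f = 1 := by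
  have e1 : kap (x * f) (x' * f') =
      f⁻¹ * (x⁻¹ * x' * x * dis x⁻¹ f') * (f' * f) * f'⁻¹ * x'⁻¹ := by unfold kap dis; group
  rw [← hff.eq, ← h.Z_comm h1] at e1
  have e2 : kap (x * f) (x' * f') = (f⁻¹ * (dis x⁻¹ f' * kap x x' * dis x' f) * f) := by
    rw [e1]; unfold kap dis; group
  rw [h.Z_conj' (mul_mem (mul_mem h1 hk) h2), e, h.Z_comm h1, mul_assoc] at e2
  exact (mul_eq_left.1 e2.symm)

end HigM

end

section

variable {P : Type*} [Group P] [Finite P] {ξ : MulAut P} {n m : ℕ}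

namespace AbM

variable {N : Subgroup P} {F : Type*} [Field F] [CharP F 2] {c₀ : P → F} {l : F}

theorem dis_mem_Z (h : AbM ξ n m N 0) (u : P) {a : P} (ha : a ∈ N) : dis u a ∈ h.hig.Z := by
  have := h.dis_pow ha u
  rwa [zero_add, pow_one, pow_two] at this

omit [Finite P] in
theorem cN_mul_Z (h : AbM ξ n m N 0) {z : P} (hz : z ∈ h.hig.Z) (a : P) :
    (z * a) ^ 2 ^ (0 + 1) = a ^ 2 ^ (0 + 1) := by
  rw [(show Commute z a from h.hig.Z_comm hz a).mul_pow, zero_add, pow_one, pow_two,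
    h.hig.mem_Z.1 hz, one_mul]

theorem half (h : AbM ξ n m N 0) (hc : IsCoord ξ h.hig.Z ⊥ c₀ l) {M : Subgroup P} {c : P → F}
    {μ : F} (hcM : IsCoord ξ M N c μ) (h4 : ∀ x ∈ M, x * x ∈ h.hig.Z) :
    ∃ γ : F → F → F, BiAdd γ ∧ (∀ s t, γ (l * s) (μ * t) = l * γ s t) ∧
      (∀ w, ∀ x ∈ M, ∀ x' ∈ M, γ (c₀ (kap x w ^ 2 ^ (0 + 1))) (c x') =
        γ (c₀ (kap x' w ^ 2 ^ (0 + 1))) (c x)) ∧
      ∀ w, ∀ x ∈ M, γ (c₀ (kap x w ^ 2 ^ (0 + 1))) (c x) = c₀ (kap x w ^ 2 ^ (0 + 1)) := by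
  obtain ⟨γ, h1, h2, h3⟩ := h.exists_eta hc hcM
  have e0 : ∀ w x : P, x * kap x w = w * x * w⁻¹ := fun w x => by unfold kap; group
  refine ⟨γ, h1, h2, fun w x hx x' hx' => ?_, fun w x hx => ?_⟩
  · have mm := h.kap_mem x w
    have mm' := h.kap_mem x' w
    have hk := h.hig.kap_mem_Z (h4 x hx) (h4 x' hx') (h4 _ (mul_mem hx hx'))
    have := h.hig.dis_mul_dis hk (h.comm _ mm _ mm') (h.dis_mem_Z x⁻¹ mm') (h.dis_mem_Z x' mm) (by
      rw [e0, e0, ← h.hig.Z_conj hk w]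
      unfold kap; group)
    have e := congrArg c₀ this
    rw [hc.mul _ (h.dis_mem_Z x⁻¹ mm') _ (h.dis_mem_Z x' mm), hc.one] at e
    rw [← hcM.map_inv hx, h3 _ mm _ hx', h3 _ mm' _ (inv_mem hx), pow_zero, pow_one, pow_one]
    exact (CharTwo.add_eq_zero.1 e).symm
  · have mm := h.kap_mem x w
    have e1 : x * kap x w * (x * kap x w) = x * x := by
      rw [e0, ← h.hig.Z_conj (h4 x hx) w]; group
    have e2 : dis x⁻¹ (kap x w) = (kap x w * kap x w)⁻¹ := by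
      calc dis x⁻¹ (kap x w) = x⁻¹ * x⁻¹ * (x * kap x w * (x * kap x w)) * (kap x w * kap x w)⁻¹ := by
            unfold dis; group
        _ = _ := by rw [e1]; group
    have z := h.dis_mem_Z x⁻¹ mm
    rw [← hcM.map_inv hx, h3 _ mm _ (inv_mem hx), pow_zero, pow_one, ← hc.map_inv z, e2, inv_inv,
      zero_add, pow_one, pow_two]

theorem kap_mem_Z_of_coords {F : Type*} [Field F] [Fintype F] [CharP F 2]
    (h : AbM ξ n m N 0) (hF : Fintype.card F = 2 ^ n) {M₁ M₂ : Subgroup P} {c₁ c₂ : P → F}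
    {μ₁ μ₂ : F} (hμ₁ : IsPrimitiveRoot μ₁ m) (hμ₂ : IsPrimitiveRoot μ₂ m)
    (hc₁ : IsCoord ξ M₁ N c₁ μ₁) (hc₂ : IsCoord ξ M₂ N c₂ μ₂)
    (h₁ : ∀ x ∈ M₁, x * x ∈ h.hig.Z) (h₂ : ∀ x ∈ M₂, x * x ∈ h.hig.Z) {x y : P} (hx : x ∈ M₁)
    (hy : y ∈ M₂) : kap x y ∈ h.hig.Z := by
  have : NeZero n := ⟨h.hig.n_ne⟩
  obtain ⟨c₀, l, hl, hc⟩ := h.hig.exists_coord_Z F hF
  have hcA := h.coordA hc
  obtain ⟨γ₁, a1, a2, a3, a4⟩ := h.half hc hc₁ h₁
  obtain ⟨γ₂, b1, b2, b3, b4⟩ := h.half hc hc₂ h₂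
  have hZ : ∀ z ∈ h.hig.Z, c₀ (z ^ 2 ^ (0 + 1)) = 0 := fun z hz => by
    rw [zero_add, pow_one, pow_two, h.hig.mem_Z.1 hz, hc.one]
  obtain ⟨β, c1, c2, c3⟩ := hc₁.descend₂ hc₂ (fun x y => c₀ (kap x y ^ 2 ^ (0 + 1)))
    (fun x _ x' _ y _ => by
      have : kap (x * x') y = dis x'⁻¹ (kap x y) * (kap x y * kap x' y) := by
        rw [kap_mul_left]; unfold dis; group
      rw [this, h.cN_mul_Z (h.dis_mem_Z _ (h.kap_mem _ _))]
      exact hcA.mul _ (h.kap_mem _ _) _ (h.kap_mem _ _))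
    (fun x _ y _ y' _ => by
      have : kap x (y * y') = kap x y * (dis y (kap x y') * kap x y') := by
        rw [kap_mul_right]; unfold dis; group
      have z := h.dis_mem_Z y (h.kap_mem x y')
      rw [this, ← mul_assoc, ← h.hig.Z_comm z, mul_assoc, h.cN_mul_Z z]
      exact hcA.mul _ (h.kap_mem _ _) _ (h.kap_mem _ _))
    (fun a ha y _ => hZ _ (by rw [h.kap_left ha]; exact h.dis_mem_Z _ ha))
    (fun x _ a ha => hZ _ (by rw [kap_right]; exact h.dis_mem_Z _ ha))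
    (l := l) (fun x _ y _ => by rw [← map_kap]; exact hcA.equiv _ (h.kap_mem _ _))
  have sw : ∀ x y : P, c₀ (kap x y ^ 2 ^ (0 + 1)) = c₀ (kap y x⁻¹ ^ 2 ^ (0 + 1)) := fun x y => by
    have : kap y x⁻¹ = dis y⁻¹ (kap x y) * kap x y := by unfold dis kap; group
    rw [this, h.cN_mul_Z (h.dis_mem_Z _ (h.kap_mem _ _))]
  have h0 := h.hig.good.bab_eq_zero hF c1 a1 b1 hμ₁ hμ₂ hl c2 a2 b2
    (fun s s' t => by
      obtain ⟨x, hx, rfl⟩ := hc₁.surj s
      obtain ⟨x', hx', rfl⟩ := hc₁.surj s'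
      obtain ⟨y, hy, rfl⟩ := hc₂.surj t
      rw [c3 x hx y hy, c3 x' hx' y hy, a3 y x hx x' hx'])
    (fun s t => by
      obtain ⟨x, hx, rfl⟩ := hc₁.surj s
      obtain ⟨y, hy, rfl⟩ := hc₂.surj t
      rw [c3 x hx y hy, a4 y x hx])
    (fun s t t' => by
      obtain ⟨x, hx, rfl⟩ := hc₁.surj s
      obtain ⟨y, hy, rfl⟩ := hc₂.surj t
      obtain ⟨y', hy', rfl⟩ := hc₂.surj t'
      rw [c3 x hx y hy, c3 x hx y' hy', sw x y, sw x y', b3 x⁻¹ y hy y' hy'])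
    (fun s t => by
      obtain ⟨x, hx, rfl⟩ := hc₁.surj s
      obtain ⟨y, hy, rfl⟩ := hc₂.surj t
      rw [c3 x hx y hy, sw x y, b4 x⁻¹ y hy]) (c₁ x) (c₂ y)
  rw [c3 x hx y hy] at h0
  have := ((hcA.zero_iff _ (h.kap_mem x y)).1 h0).2
  rwa [zero_add, pow_one, pow_two] at this

end AbM

theorem HigM.sq_mem_Z_step (h : HigM ξ n m)
    (IH : ∀ M : Subgroup P, M ≠ ⊤ → ∀ ξ' : MulAut M, HigM ξ' n m → (∃ x y : M, x * y ≠ y * x) →
      ∀ x : M, x * x * (x * x) = 1)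
    (hna : ∃ x y : P, x * y ≠ y * x) (x : P) : x * x ∈ h.Z := by
  by_contra hx
  have : Fact (Nat.Prime 2) := ⟨Nat.prime_two⟩
  have hmax : ∀ M : Subgroup P, (∀ x ∈ M, ξ x ∈ M) → M ≠ ⊤ →
      (∀ H : Subgroup P, (∀ x ∈ H, ξ x ∈ H) → M ≤ H → H = M ∨ H = ⊤) →
      (∀ x ∈ M, x * x ∈ h.Z) ∧ Nat.card M ≤ (2 ^ n) ^ 3 ∧
        ∀ z ∈ M, (∀ y ∈ M, z * y = y * z) → z ∈ h.Z := fun M h1 h2 h3 => by
    have hn : ∃ x y : M, x * y ≠ y * x := by
      by_contra hcon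
      push Not at hcon
      exact hx (h.sq_mem_Z_of_abelian_max h1 h2 h3
        (fun a ha b hb => congrArg Subtype.val (hcon ⟨a, ha⟩ ⟨b, hb⟩)) hna x)
    obtain ⟨ξ', h'⟩ := h.restrict h1 (by
      rintro rfl
      obtain ⟨x, y, hxy⟩ := hn
      exact hxy (Subsingleton.elim _ _))
    have h4 := IH M h2 ξ' h' hn
    exact ⟨fun x hx => congrArg Subtype.val (h4 ⟨x, hx⟩), h'.card_le h4, fun z hz hz' =>
      congrArg Subtype.val (h'.center_elem h4 hn (z := ⟨z, hz⟩)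
        (fun y => Subtype.ext (hz' y y.2)))⟩
  let N : Subgroup P := Subgroup.closure (Set.range fun x : P => x * x)
  have hsq : ∀ x : P, x * x ∈ N := fun x => Subgroup.subset_closure ⟨x, rfl⟩
  have hNn : N.Normal := normal_of_sq_mem hsq
  have hZn := h.Z_normal
  have hNle : ∀ H : Subgroup P, (∀ x, x * x ∈ H) → N ≤ H := fun H hH =>
    (Subgroup.closure_le _).2 (by rintro _ ⟨x, rfl⟩; exact hH x)
  have hN : ∀ x ∈ N, ξ x ∈ N := hNle (N.comap ξ.toMonoidHom) (fun x => by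
    show ξ (x * x) ∈ N
    rw [map_mul]; exact hsq _)
  have hNZ : ¬ N ≤ h.Z := fun e => hx (e (hsq x))
  have hZN : h.Z < N := lt_of_le_of_ne (h.Z_le hN (fun e => hNZ (by rw [e]; exact bot_le)))
    (fun e => hNZ e.ge)
  have hcent : ∀ a : P, (∀ g, dis g a ∈ h.Z) → ∀ y ∈ N, a * y = y * a := fun a ha => by
    have : N ≤ Subgroup.centralizer {a} := hNle _ (fun g => by
      have e := dis_mul_left g g a
      rw [mul_assoc, h.mem_Z.1 (ha g), show dis g (dis g a) = 1 by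
        rw [dis, h.Z_conj (ha g), mul_inv_cancel], mul_one, dis, mul_inv_eq_one,
        mul_inv_eq_iff_eq_mul] at e
      exact Subgroup.mem_centralizer_singleton_iff.2 e)
    exact fun y hy => (Subgroup.mem_centralizer_singleton_iff.1 (this hy)).symm
  obtain ⟨a, haN, haZ, -, ha⟩ := H3.exists_mem_central_mod h.pgroup h.Z N hNZ
  have ha' : ∀ g, dis g a ∈ h.Z := fun g => by
    have := inv_mem (ha g)
    rwa [commutatorElement_inv] at this
  obtain ⟨M, hM, hMt, hMm⟩ := h.exists_max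
  obtain ⟨m1, m2, m3⟩ := hmax M hM hMt hMm
  have hNM : N < M := lt_of_le_of_ne (hNle M (h.sq_mem_of_max hM hMt hMm))
    (fun e => haZ (m3 a (e ▸ haN) (e ▸ hcent a ha')))
  have k1 := h.mul_card_le h.inv_Z hN hZN
  have k2 := h.mul_card_le hN hM hNM
  rw [h.card_Z] at k1
  have k3 : Nat.card N ≤ 2 ^ n * Nat.card h.Z := by
    rw [h.card_Z]
    refine Nat.le_of_mul_le_mul_left (k2.trans (m2.trans (le_of_eq (by ring)))) (by positivity)
  have k4 : Nat.card M ≤ 2 ^ n * Nat.card N :=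
    m2.trans (by rw [pow_succ']; exact Nat.mul_le_mul_left _ (by rw [pow_two]; exact k1))
  let H : Subgroup P :=
    { carrier := {a | a ∈ N ∧ ∀ g, dis g a ∈ h.Z}
      mul_mem' := fun {a b} ha hb => ⟨mul_mem ha.1 hb.1, fun g => by
        have : dis g (a * b) = dis g a * (a * dis g b * a⁻¹) := by unfold dis; group
        rw [this]
        exact mul_mem (ha.2 g) (hZn.conj_mem _ (hb.2 g) a)⟩
      one_mem' := ⟨one_mem _, fun g => by simp [dis]⟩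
      inv_mem' := fun {a} ha => ⟨inv_mem ha.1, fun g => by
        have : dis g a⁻¹ = a⁻¹ * (dis g a)⁻¹ * a⁻¹⁻¹ := by unfold dis; group
        rw [this]
        exact hZn.conj_mem _ (inv_mem (ha.2 g)) _⟩ }
  have hH : H = N := (h.irr_of_card h.inv_Z hN k3 H (fun x hx => ⟨hN x hx.1, fun g => by
      obtain ⟨g, rfl⟩ := ξ.surjective g
      rw [← map_dis]; exact h.inv_Z _ (hx.2 g)⟩) (fun z hz => ⟨hZN.le hz, fun g =>
        mul_mem (hZn.conj_mem z hz g) (inv_mem hz)⟩) (fun x hx => hx.1)).resolve_left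
      (fun e => haZ (e ▸ (⟨haN, ha'⟩ : a ∈ H)))
  have hs : AbM ξ n m N 0 := ⟨h, hN, fun a ha b hb => hcent a (show a ∈ H by rwa [hH]).2 b hb, hsq,
    fun a ha => by
      have := h.mem_Z.1 (m1 a (hNM.le ha))
      rwa [← pow_two, ← pow_two, ← pow_mul] at this,
    ⟨a, haN, by rwa [zero_add, pow_one, pow_two]⟩⟩
  obtain ⟨F, _, _, _, hF⟩ := h.exists_field
  obtain ⟨c₁, μ₁, hμ₁, hc₁⟩ := h.exists_coord hNM hN hM (fun x _ => hsq x)
    (h.irr_of_card hN hM k4) F hF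
  obtain ⟨c₂, μ₂, hμ₂, hc₂⟩ := h.exists_coord (lt_top_iff_ne_top.2 hMt) hM (fun _ _ => trivial)
    (fun x _ => hNM.le (hsq x)) (fun H h1 h2 _ => hMm H h1 h2) F hF
  obtain ⟨c, d1, d2, d3⟩ := hc₁.exists_extend hsq h.good.odd h.pow_eq_one
    hμ₁.pow_eq_one
  have d0 : c 1 = 0 := by rw [d3 1 (one_mem _), hc₁.one]
  have dinv : ∀ x, c x⁻¹ = c x := fun x => by
    have := d1 x x⁻¹
    rw [mul_inv_cancel, d0] at this
    exact (CharTwo.add_eq_zero.1 this.symm).symm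
  let M₂ : Subgroup P :=
    { carrier := {x | c x = 0}
      mul_mem' := fun {a b} ha hb => by
        show c (a * b) = 0
        rw [d1, ha, hb, add_zero]
      one_mem' := d0
      inv_mem' := fun {a} ha => (dinv a).trans ha }
  have hM₂ : ∀ x ∈ M₂, ξ x ∈ M₂ := fun x hx => by
    show c (ξ x) = 0
    rw [d2, hx, mul_zero]
  have hc : IsCoord ξ ⊤ M₂ c μ₁ := ⟨le_top, fun _ _ => trivial, fun x _ y _ => d1 x y,
    fun x _ => Iff.rfl, fun t => by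
      obtain ⟨x, hx, rfl⟩ := hc₁.surj t
      exact ⟨x, trivial, d3 x hx⟩, fun x _ => d2 x⟩
  have hM₂t : M₂ ≠ ⊤ := fun e => by
    obtain ⟨x, -, hx⟩ := hc.surj 1
    have : x ∈ M₂ := by rw [e]; trivial
    exact zero_ne_one (this.symm.trans hx)
  obtain ⟨n1, -, -⟩ := hmax M₂ hM₂ hM₂t (fun H h1 h2 => h.irr_of_card (C := ⊤) hM₂ (fun _ _ => trivial)
    (by rw [hc.card, Nat.card_eq_fintype_card, hF]) H h1 h2 le_top)
  have hdec : ∀ g : P, ∃ x ∈ M, ∃ y ∈ M₂, g = x * y := fun g => by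
    obtain ⟨x, hx, e⟩ := hc₁.surj (c g)
    refine ⟨x, hx, x⁻¹ * g, ?_, by group⟩
    show c (x⁻¹ * g) = 0
    rw [d1, dinv, d3 x hx, e, CharTwo.add_self_eq_zero]
  have hc₂' : IsCoord ξ M₂ N c₂ μ₂ := ⟨fun x hx => (d3 x (hNM.le hx)).trans (hc₁.zero hx), hM₂,
    fun x _ y _ => hc₂.mul x trivial y trivial, fun x hx => by
      rw [hc₂.zero_iff x trivial]
      exact ⟨fun e => (hc₁.zero_iff x e).1 ((d3 x e).symm.trans hx), fun e => hNM.le e⟩,
    fun t => by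
      obtain ⟨g, -, rfl⟩ := hc₂.surj t
      obtain ⟨x, hx, y, hy, rfl⟩ := hdec g
      exact ⟨y, hy, by rw [hc₂.mul x trivial y trivial, hc₂.zero hx, zero_add]⟩,
    fun x _ => hc₂.equiv x trivial⟩
  obtain ⟨u, hu, v, hv, rfl⟩ := hdec x
  apply hx
  rw [mul_sq_eq]
  exact mul_mem (mul_mem (m1 u hu) (hs.kap_mem_Z_of_coords hF hμ₁ hμ₂ hc₁ hc₂' m1 n1 hu hv))
    (n1 v hv)

end

/-- Higman: a non-abelian group satisfying `Hig` has exponent four. -/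
theorem HigM.sq_mem_Z {P : Type u} [Group P] [Finite P] {ξ : MulAut P} {n m : ℕ} (h : HigM ξ n m)
    (hna : ∃ x y : P, x * y ≠ y * x) (x : P) : x * x ∈ h.Z := by
  induction hc : Nat.card P using Nat.strong_induction_on generalizing P with
  | _ k ih =>
    refine h.sq_mem_Z_step (fun M hM ξ' h' hn y => ih (Nat.card M) ?_ h' hn y rfl) hna x
    rw [← hc]
    exact lt_of_le_of_ne (Subgroup.card_le_card_group M)
      (fun e => hM ((Subgroup.card_eq_iff_eq_top M).1 e))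

theorem HigM.center_eq {P : Type*} [Group P] [Finite P] {ξ : MulAut P} {n m : ℕ} (h : HigM ξ n m)
    (hna : ∃ x y : P, x * y ≠ y * x) : Subgroup.center P = h.Z := by
  ext z
  rw [Subgroup.mem_center_iff]
  exact ⟨fun hz => h.center_elem (h.sq_mem_Z hna) hna (fun y => (hz y).symm),
    fun hz y => (h.Z_comm hz y).symm⟩

end Cfsg.Agent.SZ2
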